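/-
A sign-reversing involution on the chains of `p`-subgroups normalised by a nontrivial
`p`-element, and the resulting vanishing alternating sum.
-/
import Cfsg.Agent.Blk.ChainRank

set_option autoImplicit false

open Subgroup

namespace CL.Blk.Chn

variable {G : Type*} [Group G] {p : ℕ}

/-- Chains of nontrivial `p`-subgroups normalising each other (the empty chain included). -/
def IsCh (p : ℕ) (s : Finset (Subgroup G)) : Prop :=
  (∀ Q ∈ s, ∀ R ∈ s, Q ≤ R ∨ R ≤ Q) ∧ (∀ Q ∈ s, Q ≠ ⊥ ∧ IsPGroup p Q) ∧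
    ∀ Q ∈ s, ∀ R ∈ s, R ≤ normalizer (Q : Set G)

/-- The stabiliser of a chain. -/
def stab (s : Finset (Subgroup G)) : Subgroup G := ⨅ Q ∈ s, normalizer ((Q : Subgroup G) : Set G)

theorem mem_stab {s : Finset (Subgroup G)} {g : G} :
    g ∈ stab s ↔ ∀ Q ∈ s, g ∈ normalizer (Q : Set G) := by
  simp [stab, mem_iInf]

theorem sup_eq_bot_or_mem {s : Finset (Subgroup G)} (h : ∀ Q ∈ s, ∀ R ∈ s, Q ≤ R ∨ R ≤ Q) :
    s.sup id = ⊥ ∨ s.sup id ∈ s := by
  refine Finset.sup_induction (p := fun x => x = ⊥ ∨ x ∈ s) (Or.inl rfl) ?_ fun Q hQ => Or.inr hQ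
  rintro a (rfl | ha) b (rfl | hb)
  · simp
  · simp [hb]
  · simp [ha]
  · rcases h a ha b hb with h | h
    · rw [sup_eq_right.2 h]; exact Or.inr hb
    · rw [sup_eq_left.2 h]; exact Or.inr ha

/-- The subgroup generated by the `T`-conjugates of `u`. -/
def ncl (T : Subgroup G) (u : G) : Subgroup G := closure {x | ∃ t ∈ T, t * u * t⁻¹ = x}

theorem mem_ncl (T : Subgroup G) (u : G) : u ∈ ncl T u := subset_closure ⟨1, T.one_mem, by simp⟩

theorem ncl_le {T Q : Subgroup G} {u : G} (hu : u ∈ Q) (hT : T ≤ normalizer (Q : Set G)) :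
    ncl T u ≤ Q := by
  rw [ncl, closure_le]
  rintro _ ⟨t, ht, rfl⟩
  exact (mem_normalizer_iff.1 (hT ht) u).1 hu

theorem mem_normalizer_ncl [Finite G] {T : Subgroup G} {u g : G}
    (h : ∀ t ∈ T, ∃ t' ∈ T, g * (t * u * t⁻¹) * g⁻¹ = t' * u * t'⁻¹) :
    g ∈ normalizer (ncl T u : Set G) := by
  refine mem_normalizer_fintype fun n hn => ?_
  induction hn using closure_induction with
  | mem x hx =>
    obtain ⟨t, ht, rfl⟩ := hx
    obtain ⟨t', ht', h'⟩ := h t ht
    exact subset_closure ⟨t', ht', h'.symm⟩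
  | one => simp
  | mul x y _ _ hx hy =>
    have : g * (x * y) * g⁻¹ = g * x * g⁻¹ * (g * y * g⁻¹) := by group
    rw [this]; exact (ncl T u).mul_mem hx hy
  | inv x _ hx =>
    have : g * x⁻¹ * g⁻¹ = (g * x * g⁻¹)⁻¹ := by group
    rw [this]; exact (ncl T u).inv_mem hx

theorem le_normalizer_ncl [Finite G] (T : Subgroup G) (u : G) :
    T ≤ normalizer (ncl T u : Set G) := fun g hg =>
  mem_normalizer_ncl fun t ht => ⟨g * t, T.mul_mem hg ht, by group⟩

theorem mem_normalizer_ncl_of_comm [Finite G] {T : Subgroup G} {u g : G}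
    (hg : g ∈ normalizer (T : Set G)) (hu : g ∈ centralizer ({u} : Set G)) :
    g ∈ normalizer (ncl T u : Set G) := by
  refine mem_normalizer_ncl fun t ht => ⟨g * t * g⁻¹, (mem_normalizer_iff.1 hg t).1 ht, ?_⟩
  have h : g⁻¹ * u * g = u := by
    rw [mul_assoc, ← mem_centralizer_singleton_iff.1 hu]; group
  calc g * (t * u * t⁻¹) * g⁻¹ = g * (t * (g⁻¹ * u * g) * t⁻¹) * g⁻¹ := by rw [h]
    _ = _ := by group

theorem sup_zpowers_eq_of_sup_ncl [Finite G] [Fact p.Prime] {T A : Subgroup G} (hT : IsPGroup p T)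
    {u : G} (hu : u ∈ T) (h : A ⊔ ncl T u = T) : A ⊔ zpowers u = T := by
  have hA : A ≤ T := h ▸ le_sup_left
  have hle : A ⊔ zpowers u ≤ T := sup_le hA (zpowers_le.2 hu)
  by_contra hne
  have h1 : (A ⊔ zpowers u).subgroupOf T ≠ ⊤ := fun h' => hne (le_antisymm hle (subgroupOf_eq_top.1 h'))
  obtain ⟨K, hK, hK'⟩ := (eq_top_or_exists_le_coatom _).resolve_left h1
  haveI := hT.isNilpotent
  have hn : K.Normal := NormalizerCondition.normal_of_coatom K normalizerCondition_of_isNilpotent hK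
  have h2 : T ≤ K.map T.subtype := by
    conv_lhs => rw [← h]
    refine sup_le (fun a ha => ⟨⟨a, hA ha⟩, hK' (mem_subgroupOf.2 (mem_sup_left ha)), rfl⟩) ?_
    rw [ncl, closure_le]
    rintro _ ⟨t, ht, rfl⟩
    exact ⟨⟨t, ht⟩ * ⟨u, hu⟩ * ⟨t, ht⟩⁻¹,
      hn.conj_mem _ (hK' (mem_subgroupOf.2 (mem_sup_right (mem_zpowers u)))) _, rfl⟩
  refine hK.1 (eq_top_iff.2 fun t _ => ?_)
  obtain ⟨t', ht', h'⟩ := h2 t.2
  rwa [← Subtype.ext h']

open scoped Classical in
/-- The largest member not containing `u`. -/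
noncomputable def low (u : G) (s : Finset (Subgroup G)) : Subgroup G :=
  (s.filter fun Q => u ∉ Q).sup id

/-- The top of the chain, extended by `u`. -/
def top (u : G) (s : Finset (Subgroup G)) : Subgroup G := s.sup id ⊔ zpowers u

/-- The subgroup to be inserted or removed. -/
noncomputable def piv (u : G) (s : Finset (Subgroup G)) : Subgroup G := low u s ⊔ ncl (top u s) u

open scoped Classical in
/-- The involution. -/
noncomputable def flip (u : G) (s : Finset (Subgroup G)) : Finset (Subgroup G) :=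
  if piv u s ∈ s then s.erase (piv u s) else insert (piv u s) s

variable {u : G} {s : Finset (Subgroup G)}

theorem mem_piv : u ∈ piv u s := mem_sup_right (mem_ncl _ _)

theorem mem_top : u ∈ top u s := mem_sup_right (mem_zpowers u)

theorem le_low {Q : Subgroup G} (hQ : Q ∈ s) (hu : u ∉ Q) : Q ≤ low u s := by
  classical
  exact Finset.le_sup (f := id) (Finset.mem_filter.2 ⟨hQ, hu⟩)

theorem le_top' {Q : Subgroup G} (hQ : Q ∈ s) : Q ≤ top u s :=
  (Finset.le_sup (f := id) hQ).trans le_sup_left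

theorem low_cases (hs : IsCh p s) : low u s = ⊥ ∨ (low u s ∈ s ∧ u ∉ low u s) := by
  classical
  refine (sup_eq_bot_or_mem fun Q hQ R hR =>
    hs.1 Q (Finset.mem_filter.1 hQ).1 R (Finset.mem_filter.1 hR).1).imp_right fun h => ?_
  exact Finset.mem_filter.1 h

theorem low_le_top : low u s ≤ top u s := by
  classical
  exact Finset.sup_le fun Q hQ => le_top' (Finset.mem_filter.1 hQ).1

theorem piv_le_top : piv u s ≤ top u s := sup_le low_le_top (ncl_le mem_top le_normalizer)

theorem top_le_stab (hs : IsCh p s) (hu : u ∈ stab s) : top u s ≤ stab s :=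
  sup_le (Finset.sup_le fun R hR _ hg => mem_stab.2 fun Q hQ => hs.2.2 Q hQ R hR hg)
    (zpowers_le.2 hu)

theorem stab_le_normalizer_low (hs : IsCh p s) : stab s ≤ normalizer (low u s : Set G) := by
  rcases low_cases (u := u) hs with h | h
  · rw [h]; exact le_top.trans_eq (normalizer_eq_top ⊥).symm
  · exact fun g hg => mem_stab.1 hg _ h.1

theorem stab_le_normalizer_sup (hs : IsCh p s) :
    stab s ≤ normalizer ((s.sup id : Subgroup G) : Set G) := by
  rcases sup_eq_bot_or_mem hs.1 with h | h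
  · rw [h]; exact le_top.trans_eq (normalizer_eq_top ⊥).symm
  · exact fun g hg => mem_stab.1 hg _ h

theorem isPGroup_top (hs : IsCh p s) (hu : u ∈ stab s) (hp : ∃ k : ℕ, orderOf u = p ^ k) :
    IsPGroup p (top u s) := by
  refine IsPGroup.to_sup_of_normal_left' ?_ (isPGroup_zpowers_of_orderOf hp)
    (zpowers_le.2 (stab_le_normalizer_sup hs hu))
  rcases sup_eq_bot_or_mem hs.1 with h | h
  · rw [h]; exact IsPGroup.of_bot
  · exact (hs.2.1 _ h).2

theorem piv_le (hs : IsCh p s) (hu : u ∈ stab s) {Q : Subgroup G} (hQ : Q ∈ s) (huQ : u ∈ Q) :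
    piv u s ≤ Q := by
  refine sup_le ?_ (ncl_le huQ fun g hg => mem_stab.1 (top_le_stab hs hu hg) Q hQ)
  rcases low_cases (u := u) hs with h | h
  · rw [h]; exact bot_le
  · exact (hs.1 _ h.1 Q hQ).resolve_right fun h' => h.2 (h' huQ)

variable [Finite G]

theorem top_le_normalizer_piv (hs : IsCh p s) (hu : u ∈ stab s) :
    top u s ≤ normalizer (piv u s : Set G) := fun _ hg =>
  normalizer_inf_normalizer_le_normalizer_sup _ _
    ⟨stab_le_normalizer_low hs (top_le_stab hs hu hg), le_normalizer_ncl _ _ hg⟩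

theorem mem_normalizer_piv (hs : IsCh p s) {g : G} (hg : g ∈ stab s)
    (hc : g ∈ centralizer ({u} : Set G)) : g ∈ normalizer (piv u s : Set G) := by
  refine normalizer_inf_normalizer_le_normalizer_sup _ _
    ⟨stab_le_normalizer_low hs hg, mem_normalizer_ncl_of_comm ?_ hc⟩
  refine normalizer_inf_normalizer_le_normalizer_sup _ _ ⟨stab_le_normalizer_sup hs hg, ?_⟩
  rw [← centralizer_zpowers_eq] at hc
  exact centralizer_le_normalizer _ hc

theorem isCh_flip (hs : IsCh p s) (hu : u ∈ stab s) (hp : IsNtPElt p u) : IsCh p (flip u s) := by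
  classical
  unfold flip
  split_ifs with h
  · exact ⟨fun Q hQ R hR => hs.1 Q (Finset.mem_of_mem_erase hQ) R (Finset.mem_of_mem_erase hR),
      fun Q hQ => hs.2.1 Q (Finset.mem_of_mem_erase hQ),
      fun Q hQ R hR => hs.2.2 Q (Finset.mem_of_mem_erase hQ) R (Finset.mem_of_mem_erase hR)⟩
  · have key : ∀ Q ∈ s, Q ≤ piv u s ∨ piv u s ≤ Q := fun Q hQ => by
      by_cases huQ : u ∈ Q
      · exact Or.inr (piv_le hs hu hQ huQ)
      · exact Or.inl ((le_low hQ huQ).trans le_sup_left)
    refine ⟨?_, ?_, ?_⟩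
    · simp only [Finset.forall_mem_insert]
      exact ⟨⟨Or.inl le_rfl, fun Q hQ => (key Q hQ).symm⟩, fun Q hQ => ⟨key Q hQ, hs.1 Q hQ⟩⟩
    · simp only [Finset.forall_mem_insert]
      refine ⟨⟨fun h' => hp.2 ?_, (isPGroup_top hs hu hp.1).to_le piv_le_top⟩, hs.2.1⟩
      exact mem_bot.1 (h' ▸ mem_piv)
    · simp only [Finset.forall_mem_insert]
      exact ⟨⟨le_normalizer, fun R hR => (le_top' hR).trans (top_le_normalizer_piv hs hu)⟩,
        fun Q hQ => ⟨fun g hg => mem_stab.1 (top_le_stab hs hu (piv_le_top hg)) Q hQ, hs.2.2 Q hQ⟩⟩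

theorem stab_flip_inf (hs : IsCh p s) (hpiv : piv u (flip u s) = piv u s)
    (hs' : IsCh p (flip u s)) :
    stab (flip u s) ⊓ centralizer ({u} : Set G) = stab s ⊓ centralizer ({u} : Set G) := by
  classical
  ext g
  rw [mem_inf, mem_inf, and_congr_left_iff]
  intro hc
  have h1 := fun hg => mem_normalizer_piv hs' (g := g) hg hc
  rw [hpiv] at h1
  unfold flip at h1 ⊢
  split_ifs at h1 ⊢ with h
  · refine ⟨fun hg => mem_stab.2 fun Q hQ => ?_,
      fun hg => mem_stab.2 fun Q hQ => mem_stab.1 hg Q (Finset.mem_of_mem_erase hQ)⟩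
    by_cases hQ' : Q = piv u s
    · exact hQ' ▸ h1 hg
    · exact mem_stab.1 hg Q (Finset.mem_erase.2 ⟨hQ', hQ⟩)
  · refine ⟨fun hg => mem_stab.2 fun Q hQ => mem_stab.1 hg Q (Finset.mem_insert_of_mem hQ),
      fun hg => mem_stab.2 fun Q hQ => ?_⟩
    rcases Finset.mem_insert.1 hQ with rfl | hQ
    · exact mem_normalizer_piv hs hg hc
    · exact mem_stab.1 hg Q hQ

omit [Finite G] in
theorem low_flip : low u (flip u s) = low u s := by
  classical
  unfold low
  congr 1
  ext Q
  simp only [Finset.mem_filter, and_congr_left_iff]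
  intro hQ
  have hne : Q ≠ piv u s := fun h => hQ (h ▸ mem_piv)
  unfold flip
  split_ifs <;> simp [hne]

theorem top_flip [Fact p.Prime] (hs : IsCh p s) (hu : u ∈ stab s) (hp : IsNtPElt p u) :
    top u (flip u s) = top u s := by
  classical
  unfold flip
  split_ifs with h
  · refine le_antisymm (sup_le_sup_right (Finset.sup_mono (Finset.erase_subset _ _)) _) ?_
    by_cases hT : piv u s = top u s
    · rw [← sup_zpowers_eq_of_sup_ncl (isPGroup_top hs hu hp.1) mem_top hT]
      refine sup_le (Finset.sup_le fun Q hQ => le_top' (Finset.mem_erase.2 ⟨fun h' => ?_, ?_⟩))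
        le_sup_right
      · exact (Finset.mem_filter.1 hQ).2 ((show Q = piv u s from h') ▸ mem_piv)
      · exact (Finset.mem_filter.1 hQ).1
    · refine sup_le ?_ le_sup_right
      rcases sup_eq_bot_or_mem hs.1 with h' | h'
      · rw [h']; exact bot_le
      · refine le_top' (Finset.mem_erase.2 ⟨fun h'' => hT ?_, h'⟩)
        exact le_antisymm piv_le_top (sup_le h''.le (zpowers_le.2 mem_piv))
  · refine le_antisymm (sup_le (Finset.sup_le fun Q hQ => ?_) le_sup_right)
      (sup_le_sup_right (Finset.sup_mono (Finset.subset_insert _ _)) _)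
    rcases Finset.mem_insert.1 hQ with rfl | hQ
    · exact piv_le_top
    · exact le_top' hQ

theorem piv_flip [Fact p.Prime] (hs : IsCh p s) (hu : u ∈ stab s) (hp : IsNtPElt p u) :
    piv u (flip u s) = piv u s := by
  rw [piv, low_flip, top_flip hs hu hp, piv]

theorem flip_flip [Fact p.Prime] (hs : IsCh p s) (hu : u ∈ stab s) (hp : IsNtPElt p u) :
    flip u (flip u s) = s := by
  classical
  rw [flip, piv_flip hs hu hp]
  unfold flip
  split_ifs with h h' h'
  · exact absurd h' (Finset.notMem_erase _ _)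
  · exact Finset.insert_erase h
  · exact Finset.erase_insert h
  · exact absurd (Finset.mem_insert_self _ _) h'

omit [Finite G] in
theorem neg_one_pow_card_flip : (-1 : ℤ) ^ (flip u s).card = -(-1) ^ s.card := by
  classical
  unfold flip
  split_ifs with h
  · rw [← Finset.card_erase_add_one h, pow_succ]; simp
  · rw [Finset.card_insert_of_notMem h, pow_succ]; simp

open scoped Classical in
/-- The alternating sum over the chains normalised by `u` of a function of the centraliser of `u`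
in the stabiliser vanishes. -/
theorem sum_eq_zero [Fact p.Prime] [Fintype (Finset (Subgroup G))] (hp : IsNtPElt p u)
    (F : Subgroup G → ℤ) :
    ∑ s : Finset (Subgroup G) with IsCh p s ∧ u ∈ stab s,
      (-1 : ℤ) ^ s.card * F (stab s ⊓ centralizer ({u} : Set G)) = 0 := by
  refine Finset.sum_involution (fun s _ => flip u s) ?_ ?_ ?_ ?_
  · intro s hs
    obtain ⟨hs, hu⟩ := (Finset.mem_filter.1 hs).2
    rw [stab_flip_inf hs (piv_flip hs hu hp) (isCh_flip hs hu hp), neg_one_pow_card_flip]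
    ring
  · intro s _ _ h
    have := neg_one_pow_card_flip (u := u) (s := s)
    rw [h] at this
    rcases neg_one_pow_eq_or ℤ s.card with h' | h' <;> rw [h'] at this <;> omega
  · intro s hs
    obtain ⟨hs, hu⟩ := (Finset.mem_filter.1 hs).2
    refine Finset.mem_filter.2 ⟨Finset.mem_univ _, isCh_flip hs hu hp, ?_⟩
    have h : u ∈ stab s ⊓ centralizer ({u} : Set G) := ⟨hu, mem_centralizer_singleton_iff.2 rfl⟩
    rw [← stab_flip_inf hs (piv_flip hs hu hp) (isCh_flip hs hu hp)] at h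
    exact h.1
  · intro s hs
    obtain ⟨hs, hu⟩ := (Finset.mem_filter.1 hs).2
    exact flip_flip hs hu hp

open scoped Classical in
theorem eq_sum_nonempty [Fact p.Prime] [Fintype (Finset (Subgroup G))] (hp : IsNtPElt p u)
    (F : Subgroup G → ℤ) :
    F (centralizer ({u} : Set G)) = ∑ s : Finset (Subgroup G) with s.Nonempty ∧ IsCh p s,
      (-1 : ℤ) ^ (s.card - 1) *
        if u ∈ stab s then F (stab s ⊓ centralizer ({u} : Set G)) else 0 := by
  have h := sum_eq_zero hp F
  have h0 : (∅ : Finset (Subgroup G)) ∈ Finset.univ.filter fun s => IsCh p s ∧ u ∈ stab s := by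
    simp [IsCh, mem_stab]
  rw [← Finset.add_sum_erase _ _ h0] at h
  have h1 : stab (∅ : Finset (Subgroup G)) = ⊤ := by simp [stab]
  rw [h1, top_inf_eq, Finset.card_empty, pow_zero, one_mul, add_eq_zero_iff_eq_neg,
    ← Finset.sum_neg_distrib] at h
  simp only [mul_ite, mul_zero]
  rw [h, ← Finset.sum_filter, Finset.filter_filter]
  refine Finset.sum_congr (by ext s; simp [Finset.nonempty_iff_ne_empty, and_assoc]) fun s hs => ?_
  obtain ⟨n, hn⟩ : ∃ n, s.card = n + 1 :=
    Nat.exists_eq_succ_of_ne_zero (Finset.mem_filter.1 hs).2.1.1.card_ne_zero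
  rw [hn, Nat.add_sub_cancel, pow_succ]
  ring

omit [Finite G] in
theorem nonempty_and_isCh_iff : s.Nonempty ∧ IsCh p s ↔
    s.Nonempty ∧ (∀ Q ∈ s, ∀ R ∈ s, Q ≤ R ∨ R ≤ Q) ∧ (∀ Q ∈ s, Q ≠ ⊥ ∧ IsPGroup p Q) ∧
      ∃ T ∈ s, ∀ Q ∈ s, Q ≤ T ∧ T ≤ normalizer ((Q : Subgroup G) : Set G) := by
  refine and_congr_right fun hne => and_congr_right fun h1 => and_congr_right fun h2 => ⟨fun h => ?_,
    fun ⟨T, _, hT⟩ Q hQ R hR => (hT R hR).1.trans (hT Q hQ).2⟩
  rcases sup_eq_bot_or_mem h1 with h' | h'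
  · obtain ⟨Q, hQ⟩ := hne
    exact absurd (le_bot_iff.1 ((Finset.le_sup (f := id) hQ).trans h'.le)) (h2 Q hQ).1
  · exact ⟨_, h', fun Q hQ => ⟨Finset.le_sup (f := id) hQ, h Q hQ _ h'⟩⟩

end CL.Blk.Chn
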