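/-
The union of the blocks of a centralizer inducing a given block; Galois-fixed characters.
-/
import Cfsg.Agent.Blk.Basic2

set_option autoImplicit false

namespace CL.Blk.Rk

open Cfsg CL.Char CL.Blk Module MonoidAlgebra
open scoped MonoidAlgebra ComplexConjugate

variable {G : Type*} [Group G] {p : ℕ} {M : Ideal AlgInt} {B : Set (IrrCharacter G)}

/-- The union of the blocks of `H` which induce `B`. -/
def indSet (M : Ideal AlgInt) (H : Subgroup G) (B : Set (IrrCharacter G)) : Set (IrrCharacter H) :=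
  {ξ | IsInducedBlock M H (blockOf M (ξ : H → ℂ)) B}

theorem mem_indSet_iff (hM : IsPModular p M) {H : Subgroup G} {b : Set (IrrCharacter H)}
    (hb : IsPBlock M b) {ξ : IrrCharacter H} (hξ : ξ ∈ b) :
    ξ ∈ indSet M H B ↔ IsInducedBlock M H b B := by
  rw [indSet, Set.mem_ofPred_eq, ← tr_eq_blockOf hM hb hξ]

theorem blockIdem_indSet_mem_OG [Finite G] (hM : IsPModular p M) (H : Subgroup G) :
    blockIdem (indSet M H B) ∈ OG M H :=
  blockIdem_mem_OG_of_closed hM fun ξ hξ _ hη =>
    (mem_indSet_iff hM (tr_isPBlock_blockOf ξ) hη).2 hξ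

theorem blockIdem_compl_mem_OG [Finite G] (hB : blockIdem B ∈ OG M G) : blockIdem Bᶜ ∈ OG M G := by
  rw [blockIdem_compl]; exact sub_mem (one_mem _) hB

theorem regProj_eq_zero_of_forall_blockOf [Fintype G] (hM : IsPModular p M)
    (hB : blockIdem B ∈ OG M G) {θ : G → ℂ} (hθ : IsClassFunction G θ)
    (h : ∀ χ ∈ B, regProj p (blockOf M (χ : G → ℂ)) θ = 0) : regProj p B θ = 0 := by
  rw [regProj_apply, ← (regClosed_of_mem_OG hM hB).blockPart_pReg hθ, blockPart_eq_zero_iff]
  intro χ hχ
  rw [← classInner_blockPart_of_mem _ (tr_mem_blockOf_self hM χ),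
    (regClosed_of_isPBlock hM (tr_isPBlock_blockOf χ)).blockPart_pReg hθ, ← regProj_apply, h χ hχ,
    classInner_zero_left]

theorem regProj_add_compl [Fintype G] (B : Set (IrrCharacter G)) {θ : G → ℂ}
    (hθ : IsClassFunction G θ) : regProj p B θ + regProj p Bᶜ θ = pRegularPart p θ := by
  rw [regProj_apply, regProj_apply, ← pReg_add, blockPart_add_compl B hθ]

variable [Fintype G] {H : Subgroup G} [Fintype H] {u : G}

theorem regProj_indSet_shift_of_notMem (hM : IsPModular p M) (hH : IsCent H u)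
    (hu : ∃ k : ℕ, orderOf u = p ^ k) {χ : IrrCharacter G} (hχ : χ ∉ B) :
    regProj p (indSet M H B) (shift H u χ) = 0 :=
  regProj_eq_zero_of_forall_blockOf hM (blockIdem_indSet_mem_OG hM H)
    (isClassFunction_shift hH χ.2.isClassFunction) fun _ hξ => regProj_shift_eq_zero hM hH hu hξ hχ

theorem regProj_indSet_shift_of_mem (hM : IsPModular p M) (hB : IsPBlock M B) (hH : IsCent H u)
    (hu : ∃ k : ℕ, orderOf u = p ^ k) {χ : IrrCharacter G} (hχ : χ ∈ B) :
    regProj p (indSet M H B) (shift H u χ) = pRegularPart p (shift H u χ) := by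
  have h := isClassFunction_shift hH χ.2.isClassFunction
  rw [← regProj_add_compl (indSet M H B) h, regProj_eq_zero_of_forall_blockOf hM
    (blockIdem_compl_mem_OG (blockIdem_indSet_mem_OG hM H)) h fun ξ hξ =>
      regProj_shift_eq_zero_of_not_induced hM hH hu (tr_isPBlock_blockOf ξ) hB hξ hχ, add_zero]

/-- The basic set of all Brauer characters of blocks of `H` inducing `B`. -/
noncomputable abbrev indBasic (hM : IsPModular p M) (H : Subgroup G) [Fintype H]
    (B : Set (IrrCharacter G)) : BasicSet p (indSet M H B) (IBr M (indSet M H B)) :=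
  ibrSet hM (blockIdem_indSet_mem_OG hM H)

theorem pReg_shift_eq_sum_indBasic (hM : IsPModular p M) (hB : IsPBlock M B) (hH : IsCent H u)
    (hu : ∃ k : ℕ, orderOf u = p ^ k) {χ : IrrCharacter G} (hχ : χ ∈ B) :
    pRegularPart p (shift H u χ) =
      ∑ i, (indBasic hM H B).gdec u χ i • (indBasic hM H B).φ i := by
  rw [← regProj_indSet_shift_of_mem hM hB hH hu hχ, (indBasic hM H B).regProj_shift_eq_sum]

open Classical in
theorem sum_mem_gdec_indBasic (hM : IsPModular p M) (hH : IsCent H u)
    (hu : ∃ k : ℕ, orderOf u = p ^ k) (i : IBr M (indSet M H B)) (f : IrrCharacter G → ℂ) :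
    ∑ χ : IrrCharacter G with χ ∈ B, (indBasic hM H B).gdec u χ i * f χ =
      ∑ χ : IrrCharacter G, (indBasic hM H B).gdec u χ i * f χ :=
  Finset.sum_filter_of_ne fun χ _ h => by_contra fun hχ => h (by
    rw [BasicSet.gdec, (indBasic hM H B).regProj_eq_zero_iff.1
      (regProj_indSet_shift_of_notMem hM hH hu hχ) i, zero_mul])

open Classical in
theorem sum_classInner_shift_of_not_isConj (hM : IsPModular p M) (hB : IsPBlock M B)
    (hH : IsCent H u) (hu : ∃ k : ℕ, orderOf u = p ^ k) {v : G} (hH' : IsCent H v)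
    (hv : ∃ k : ℕ, orderOf v = p ^ k) (huv : ¬ IsConj v u) :
    ∑ χ : IrrCharacter G with χ ∈ B,
      classInner (pRegularPart p (shift H v χ)) (shift H u χ) = 0 := by
  rw [Finset.sum_congr rfl fun χ hχ => by
    rw [← classInner_pReg_pReg, pReg_shift_eq_sum_indBasic hM hB hH hu (Finset.mem_filter.1 hχ).2,
      pReg_shift_eq_sum_indBasic hM hB hH' hv (Finset.mem_filter.1 hχ).2]]
  simp only [classInner_sum_left, classInner_sum_right, classInner_smul_left, classInner_smul_right,
    Finset.mul_sum]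
  rw [Finset.sum_comm]
  refine Finset.sum_eq_zero fun j _ => ?_
  rw [Finset.sum_comm]
  refine Finset.sum_eq_zero fun i _ => ?_
  simp only [← mul_assoc, ← Finset.sum_mul]
  simp only [mul_comm (conj _)]
  rw [sum_mem_gdec_indBasic hM hH' hv,
    BasicSet.sum_irr_gdec_mul_conj_of_not_isConj _ hM.1 hH' hv hH hu huv, zero_mul]

omit [Fintype G] [Fintype H] in
theorem classInner_br_Φ [Fintype G] (hM : IsPModular p M) (hB : blockIdem B ∈ OG M G)
    {V : Type*} [AddCommGroup V] [Module (resField M) V] [FiniteDimensional (resField M) V]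
    (σ : Representation (resField M) G V) (i : IBr M B) :
    classInner (br p σ) ((ibrSet hM hB).Φ i) = mult σ i.1 := by
  refine (ibrSet hM hB).classInner_Φ_eq_of_regProj_eq (c := fun i => mult σ i.1) ?_ i
  rw [br_eq_sum hM, map_sum, sum_sim_eq_sum_iBr (B := B)]
  · exact Finset.sum_congr rfl fun j _ => by rw [map_smul, regProj_ibr hM hB j.2, ibrSet_φ]
  · intro j hj
    rw [map_smul, regProj_ibr_of_not_mem hM hB hj, smul_zero]

open Classical in
theorem exists_nat_sum_classInner_shift_comp (hM : IsPModular p M) (hB : IsPBlock M B)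
    (hH : IsCent H u) (hu : ∃ k : ℕ, orderOf u = p ^ k) (α : H ≃* H) :
    ∃ n : ℕ, ∑ χ : IrrCharacter G with χ ∈ B,
      classInner (pRegularPart p fun s => shift H u χ (α s)) (shift H u χ) = n := by
  set β := indBasic hM H B
  refine ⟨∑ i : IBr M (indSet M H B), mult (i.1.rep.comp α.toMonoidHom) i.1, ?_⟩
  have h1 : ∀ χ ∈ B, (pRegularPart p fun s => shift H u χ (α s)) =
      ∑ i, β.gdec u χ i • br p (i.1.rep.comp α.toMonoidHom) := fun χ hχ => by
    funext s
    have h2 := congrFun (pReg_shift_eq_sum_indBasic hM hB hH hu hχ) (α s)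
    have h3 : IsPRegular p (α s) ↔ IsPRegular p s := by
      simp only [IsPRegular, MulEquiv.orderOf_eq]
    simp only [pReg_apply, h3] at h2 ⊢
    rw [h2]
    simp only [Finset.sum_apply, Pi.smul_apply]
    refine Finset.sum_congr rfl fun i _ => ?_
    rw [br_comp_of_injective _ (f := α.toMonoidHom) α.injective]
    rfl
  rw [Finset.sum_congr rfl fun χ hχ => by
    rw [← classInner_pReg_pReg, pReg_shift_eq_sum_indBasic hM hB hH hu (Finset.mem_filter.1 hχ).2,
      h1 χ (Finset.mem_filter.1 hχ).2]]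
  simp only [classInner_sum_left, classInner_sum_right, classInner_smul_left, classInner_smul_right,
    Finset.mul_sum]
  simp_rw [Finset.sum_comm (s := Finset.univ.filter fun χ : IrrCharacter G => χ ∈ B)]
  rw [Finset.sum_comm, Nat.cast_sum]
  refine Finset.sum_congr rfl fun i _ => ?_
  rw [← classInner_br_Φ hM (blockIdem_indSet_mem_OG hM H), BasicSet.Φ_eq_sum, classInner_sum_right]
  refine Finset.sum_congr rfl fun j _ => ?_
  simp only [← mul_assoc, ← Finset.sum_mul]
  simp only [mul_comm (conj _)]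
  rw [sum_mem_gdec_indBasic hM hH hu, BasicSet.sum_irr_gdec_mul_conj _ hM.1 hH hu,
    BasicSet.classInner_Φ_Φ, classInner_smul_right, map_intCast, BasicSet.cartan_symm]

omit [Fintype G] in
theorem pow_eq_self_of_reg [Finite G] (hp : p.Prime) {k : ℕ}
    (hk : k ≡ 1 [MOD Nat.card G / p ^ (Nat.card G).factorization p]) {s : G}
    (hs : IsPRegular p s) : s ^ k = s := by
  conv_rhs => rw [← pow_one s]
  rw [pow_eq_pow_iff_modEq]
  refine hk.of_dvd (Nat.Coprime.dvd_of_dvd_mul_left
    (Nat.Coprime.pow_right ((Nat.card G).factorization p) (hp.coprime_iff_not_dvd.2 hs).symm) ?_)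
  rw [Nat.mul_div_cancel' (Nat.ordProj_dvd _ _)]
  exact orderOf_dvd_natCard s

open Classical in
/-- A Galois automorphism fixing the `p'`-roots of unity fixes at least `l(B)` members of `B`. -/
theorem blockRank_le_card_fixed (hM : IsPModular p M) (hB : IsPBlock M B) {k : ℕ}
    (hk : k.Coprime (Nat.card G))
    (hk1 : k ≡ 1 [MOD Nat.card G / p ^ (Nat.card G).factorization p]) :
    blockRank p B ≤ (Finset.univ.filter fun χ : IrrCharacter G =>
      χ ∈ B ∧ ∀ g, (χ : G → ℂ) (g ^ k) = (χ : G → ℂ) g).card := by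
  have hp := hM.1
  obtain ⟨X, hX, hXrep⟩ := exists_pElt_reps (G := G) p
  have h1 : 1 ∈ X := by
    obtain ⟨x, ⟨hx, hx'⟩, -⟩ := hXrep 1 ⟨0, by simp⟩
    rwa [isConj_one_right.1 hx'] at hx
  set S : G → ℂ := fun u => ∑ χ : IrrCharacter G with χ ∈ B,
    classInner (secPart p u fun g => (χ : G → ℂ) (g ^ k)) χ with hS
  have h2 : ((Finset.univ.filter fun χ : IrrCharacter G =>
      χ ∈ B ∧ ∀ g, (χ : G → ℂ) (g ^ k) = (χ : G → ℂ) g).card : ℂ) = ∑ u ∈ X, S u := by
    rw [Finset.sum_comm, ← Finset.filter_filter, Finset.card_filter, Nat.cast_sum]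
    refine Finset.sum_congr rfl fun χ _ => ?_
    rw [← classInner_sum_left, sum_secPart hp X hXrep,
      (isIrr_pow_coprime χ.2 hk).classInner_eq_ite χ.2]
    simp only [funext_iff, Nat.cast_ite, Nat.cast_one, Nat.cast_zero]
  have h3 : S 1 = blockRank p B := by
    rw [(regClosed_of_isPBlock hM hB).blockRank_eq_sum]
    refine Finset.sum_congr rfl fun χ _ => ?_
    rw [secPart_one, pReg_eq_iff.2 fun g hg => by rw [pow_eq_self_of_reg hp hk1 hg]]
  have h4 : ∀ u ∈ X, ∃ n : ℕ, S u = n := fun u huX => by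
    have hu := hX u huX
    have hH := isCent_centralizer u
    set H := Subgroup.centralizer ({u} : Set G)
    have hH' := hH.pow (hk.coprime_dvd_right (orderOf_dvd_natCard u))
    have h5 : S u = ∑ χ : IrrCharacter G with χ ∈ B,
        classInner (pRegularPart p (shift H (u ^ k) χ)) (shift H u χ) := by
      refine Finset.sum_congr rfl fun χ _ => ?_
      rw [classInner_secPart hp hH hu (isIrr_pow_coprime χ.2 hk).isClassFunction
        χ.2.isClassFunction, pReg_eq_iff.2 fun s hs => ?_]
      rw [shift_apply, shift_apply, (show Commute u s from (hH.comm s).symm).mul_pow,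
        pow_eq_self_of_reg hp hk1 ((isPRegular_coe s).2 hs)]
    by_cases hc : IsConj (u ^ k) u
    · obtain ⟨g, hg⟩ := isConj_iff.1 hc
      have hN : g ∈ Subgroup.normalizer (H : Set G) := by
        rw [Subgroup.mem_normalizer_iff]
        intro h
        rw [hH' h, hH, ← (MulAut.conj g).injective.eq_iff]
        simp only [map_mul, MulAut.conj_apply, hg]
      obtain ⟨n, hn⟩ := exists_nat_sum_classInner_shift_comp hM hB hH hu
        (H.normalizerMonoidHom ⟨g, hN⟩)
      refine ⟨n, ?_⟩
      rw [h5, ← hn]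
      refine Finset.sum_congr rfl fun χ _ => ?_
      congr 2
      funext s
      rw [shift_apply, shift_apply, ← χ.2.isClassFunction _ g]
      change _ = (χ : G → ℂ) (u * (g * s * g⁻¹))
      rw [show g * (u ^ k * s) * g⁻¹ = (g * u ^ k * g⁻¹) * (g * s * g⁻¹) by group, hg]
    · exact ⟨0, by rw [h5, sum_classInner_shift_of_not_isConj hM hB hH hu hH'
        (orderOf_pow_pElt hp hu k) hc, Nat.cast_zero]⟩
  choose! n hn using h4
  rw [Finset.sum_congr rfl hn, ← Nat.cast_sum, Nat.cast_inj] at h2
  rw [h2, ← Nat.cast_inj (R := ℂ).1 (h3.symm.trans (hn 1 h1)) |>.symm]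
  exact Finset.single_le_sum (fun _ _ => Nat.zero_le _) h1

end CL.Blk.Rk
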