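/-
The Isaacs correspondence step, part 3: the canonical family of homogeneous units over an invariant character.
-/
import Cfsg.Agent.Blk.Isa2
import Cfsg.Agent.Char.GlaubInv

set_option autoImplicit false
set_option linter.unusedSectionVars false
set_option linter.style.haveILetI false

namespace CL.Blk.Isa

open MonoidAlgebra Cfsg CL.Char
open scoped MonoidAlgebra ComplexConjugate

variable {G S : Type*} [Group G] [Finite G] [Group S] [Finite S]

/-- The group theoretic hypotheses. -/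
structure Hyp (α : S →* MulAut G) (K L H : Subgroup G) : Prop where
  LK : L ≤ K
  LH : L ≤ H
  invK : ∀ s, ∀ k ∈ K, α s k ∈ K
  invL : ∀ s, ∀ l ∈ L, α s l ∈ L
  ab : ∀ a ∈ K, ∀ b ∈ K, (a * b)⁻¹ * (b * a) ∈ L
  HLC : ∀ h ∈ H, ∃ l ∈ L, ∃ c, (∀ s, α s c = c) ∧ h = l * c
  CH : ∀ c, (∀ s, α s c = c) → c ∈ H
  GKC : ∀ g, ∃ k ∈ K, ∃ c, (∀ s, α s c = c) ∧ g = k * c
  fp : ∀ k ∈ K, (∀ s, k⁻¹ * α s k ∈ L) → k ∈ L
  odd : Odd (Nat.card G)
  cop : (Nat.card G).Coprime (Nat.card S)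
  solv : Group.IsSolvable G

variable {α : S →* MulAut G} {K L H : Subgroup G} [hL : L.Normal]

theorem Hyp.mk_comm (hy : Hyp α K L H) {a b : G} (ha : a ∈ K) (hb : b ∈ K) :
    ((a * b : G) : G ⧸ L) = (b * a : G) := QuotientGroup.eq.mpr (hy.ab a ha b hb)

/-- The abelian section. -/
abbrev Hyp.commGroup (hy : Hyp α K L H) {D : Subgroup G} (hD : D ≤ K) : CommGroup (D.map (QuotientGroup.mk' L)) :=
  { (inferInstance : Group (D.map (QuotientGroup.mk' L))) with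
    mul_comm := by
      rintro ⟨_, a, ha, rfl⟩ ⟨_, b, hb, rfl⟩
      exact Subtype.ext (hy.mk_comm (hD ha) (hD hb)) }

/-- The action on the abelian section. -/
def Hyp.act (hy : Hyp α K L H) {D : Subgroup G} (hS : ∀ s, ∀ k ∈ D, α s k ∈ D) :
    S →* MulAut (D.map (QuotientGroup.mk' L)) :=
  glRestrict (glQuotHom α L hy.invL) _ (by
    rintro s _ ⟨k, hk, rfl⟩
    exact ⟨α s k, hS s k hk, rfl⟩)

theorem Hyp.prod_act [Fintype S] (hy : Hyp α K L H) {D : Subgroup G} (hD : D ≤ K) (hS : ∀ s, ∀ k ∈ D, α s k ∈ D)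
    (q : D.map (QuotientGroup.mk' L)) : letI := hy.commGroup hD; ∏ s, hy.act hS s q = 1 := by
  letI := hy.commGroup hD
  have h1 : ∀ t, hy.act hS t (∏ s, hy.act hS s q) = ∏ s, hy.act hS s q := fun t => by
    rw [map_prod]
    exact Fintype.prod_equiv (Equiv.mulLeft t) _ _ fun s => by simp
  generalize ∏ s, hy.act hS s q = x at h1
  obtain ⟨_, k, hk, rfl⟩ := x
  refine Subtype.ext ((QuotientGroup.eq_one_iff k).mpr (hy.fp k (hD hk) fun s => ?_))
  exact QuotientGroup.eq.mp (congrArg Subtype.val (h1 s)).symm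

theorem Hyp.fp' (hy : Hyp α K L H) {N : Subgroup G} (hN : L ≤ N) {k : G} (hk : k ∈ K)
    (h : ∀ s, k⁻¹ * α s k ∈ N) : k ∈ N := by
  have := Fintype.ofFinite S
  letI := hy.commGroup le_rfl
  let q : K.map (QuotientGroup.mk' L) := ⟨k, k, hk, rfl⟩
  let N' := (N.map (QuotientGroup.mk' L)).subgroupOf (K.map (QuotientGroup.mk' L))
  have h1 : ∏ s, q⁻¹ * hy.act hy.invK s q ∈ N' := N'.prod_mem fun s _ => ⟨_, h s, rfl⟩
  rw [Finset.prod_mul_distrib, hy.prod_act le_rfl, mul_one, Finset.prod_const, Finset.card_univ, inv_pow,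
    inv_mem_iff, ← Nat.card_eq_fintype_card] at h1
  obtain ⟨m, hm⟩ := exists_pow_eq_self_of_coprime (x := q) (n := Nat.card S) (hy.cop.symm.coprime_dvd_right
    ((orderOf_dvd_natCard q).trans (Subgroup.card_map_dvd _ _ |>.trans (Subgroup.card_subgroup_dvd_card K))))
  obtain ⟨n, hn, e⟩ : q ∈ N' := hm ▸ N'.pow_mem h1 m
  have h2 := hN (QuotientGroup.eq.mp e)
  rwa [N.mul_mem_cancel_left (N.inv_mem hn)] at h2

theorem Hyp.hom_triv (hy : Hyp α K L H) {D : Subgroup G} (hLD : L ≤ D) (hD : D ≤ K)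
    (hS : ∀ s, ∀ k ∈ D, α s k ∈ D) {μ : G → ℂ} (h1 : ∀ l ∈ L, μ l = 1)
    (h2 : ∀ k ∈ D, ∀ k' ∈ D, μ (k * k') = μ k * μ k') (h3 : ∀ s, ∀ k ∈ D, μ (α s k) = μ k) {k : G} (hk : k ∈ D) :
    μ k = 1 := by
  have h4 : ∀ k ∈ D, μ k⁻¹ * μ k = 1 := fun k hk => by
    rw [← h2 _ (D.inv_mem hk) k hk, inv_mul_cancel, h1 1 L.one_mem]
  let N : Subgroup G :=
    { carrier := {k | k ∈ D ∧ μ k = 1}
      mul_mem' := fun {a b} ha hb => ⟨D.mul_mem ha.1 hb.1, by rw [h2 a ha.1 b hb.1, ha.2, hb.2, one_mul]⟩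
      one_mem' := ⟨D.one_mem, h1 1 L.one_mem⟩
      inv_mem' := fun {a} ha => ⟨D.inv_mem ha.1, by simpa [ha.2] using h4 a ha.1⟩ }
  exact (hy.fp' (N := N) (fun l hl => ⟨hLD hl, h1 l hl⟩) (hD hk) fun s =>
    ⟨D.mul_mem (D.inv_mem hk) (hS s k hk), by rw [h2 _ (D.inv_mem hk) _ (hS s k hk), h3 s k hk, h4 k hk]⟩).2

theorem exists_smul_idm {θ : IrrCharacter L} {x : ℂ[G]} (h1 : Sup L 1 x) (h2 : idm L θ * x = x)
    (h3 : x ∈ fixedAlg ℂ L) : ∃ c : ℂ, x = c • idm L θ :=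
  ⟨_, by rw [← fixed_mul_idm h3 (sup_one_iff.mp h1), ← commute_of_supp (idm_supp θ) h3, h2]⟩

/-- A canonical family of homogeneous units. -/
structure Fam (α : S →* MulAut G) (D : Subgroup G) (θ : IrrCharacter L) (u : G → ℂ[G]) (a : G → G → ℂˣ) :
    Prop where
  sup : ∀ k ∈ D, Sup L (k : G ⧸ L) (u k)
  left : ∀ k ∈ D, idm L θ * u k = u k
  fix : ∀ k ∈ D, u k ∈ fixedAlg ℂ L
  one : u 1 = idm L θ
  coset : ∀ k k' : G, (k : G ⧸ L) = k' → u k = u k'
  mul : ∀ k ∈ D, ∀ k' ∈ D, u k * u k' = (a k k' : ℂ) • u (k * k')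
  al : ∀ k ∈ D, ∀ k' ∈ D, ∀ r ∈ D, a (k * k') r = a k r * a k' r
  ar : ∀ k ∈ D, ∀ k' ∈ D, ∀ r ∈ D, a r (k * k') = a r k * a r k'
  self : ∀ k ∈ D, a k k = 1
  equi : ∀ s, ∀ k ∈ D, dc (α s) (u k) = u (α s k)

theorem Hyp.exists_fam (hy : Hyp α K L H) {D : Subgroup G} (hD : D ≤ K) (hS : ∀ s, ∀ k ∈ D, α s k ∈ D)
    {θ : IrrCharacter L} (hθ : ∀ s, dc (α s) (idm L θ) = idm L θ)
    (hc : ∀ k ∈ D, sg k * idm L θ = idm L θ * sg k) : ∃ u a, Fam α D θ u a := by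
  classical
  have := Fintype.ofFinite S
  have := Fintype.ofFinite L
  letI := hy.commGroup hD
  let C : D.map (QuotientGroup.mk' L) → Submodule ℂ ℂ[G] := fun q =>
    { carrier := {x | Sup L q x ∧ idm L θ * x = x ∧ x ∈ fixedAlg ℂ L}
      add_mem' := fun ha hb => ⟨ha.1.add hb.1, by rw [mul_add, ha.2.1, hb.2.1], add_mem ha.2.2 hb.2.2⟩
      zero_mem' := ⟨fun _ _ => rfl, mul_zero _, zero_mem _⟩
      smul_mem' := fun c x hx => ⟨hx.1.smul c, by rw [mul_smul_comm, hx.2.1], Subalgebra.smul_mem _ hx.2.2 c⟩ }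
  have he : Sup L 1 (idm L θ) := sup_one_iff.mpr (idm_supp θ)
  have hav : ∀ g : G, Sup L (g : G ⧸ L) (av L (sg g) * idm L θ) ∧
      idm L θ * (av L (sg g) * idm L θ) = av L (sg g) * idm L θ ∧ av L (sg g) * idm L θ ∈ fixedAlg ℂ L := fun g =>
    ⟨by
      have := ((sup_sg g).av (N := L) fun l hl => by
        simp [(QuotientGroup.eq_one_iff l).mpr hl]).mul he
      rwa [mul_one] at this,
    by rw [← mul_assoc, commute_of_supp (idm_supp θ) (av_mem _), mul_assoc, idm_mul_self],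
    mul_mem (av_mem _) (idm_mem θ)⟩
  have hC : Lines (idm L θ) C :=
    { ne := idm_ne_zero θ
      left := fun q x hx => hx.2.1
      right := fun q x hx => by rw [← commute_of_supp (idm_supp θ) hx.2.2, hx.2.1]
      mul := fun q q' x hx y hy => ⟨hx.1.mul hy.1, by rw [← mul_assoc, hx.2.1], mul_mem hx.2.2 hy.2.2⟩
      one := ⟨he, idm_mul_self θ, idm_mem θ⟩
      line := fun x hx => exists_smul_idm hx.1 hx.2.1 hx.2.2
      unit := by
        rintro ⟨_, k, hk, rfl⟩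
        obtain ⟨l, hl, h⟩ := exists_av_mul_ne_zero θ (hc k hk)
        have h1 : ((k * l : G) : G ⧸ L) = k := by simp [(QuotientGroup.eq_one_iff l).mpr hl]
        have h2 := hav (k * l)
        have h3 := hav (k * l)⁻¹
        rw [QuotientGroup.mk_inv, h1] at h3
        rw [h1] at h2
        have h4 := h2.1.mul h3.1
        rw [mul_inv_cancel] at h4
        obtain ⟨c, hc⟩ := exists_smul_idm (θ := θ) h4 (by rw [← mul_assoc, h2.2.1]) (mul_mem h2.2.2 h3.2.2)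
        have h5 : c ≠ 0 := fun e => h (by rw [mul_assoc, ← h3.2.1, ← mul_assoc, hc, e, zero_smul])
        exact ⟨_, h2, _, (C _).smul_mem c⁻¹ h3, by rw [mul_smul_comm, hc, inv_smul_smul₀ h5]⟩
      disj := fun q q' x hx hx' h0 => Subtype.ext (hx.1.eq hx'.1 h0) }
  have hdvd := (Subgroup.card_map_dvd D (QuotientGroup.mk' L)).trans (Subgroup.card_subgroup_dvd_card D)
  obtain ⟨u, a, h1, h2, h3, h4, h5, h6, h7⟩ := hC.exists_split (hy.odd.of_dvd_nat hdvd)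
    (Nat.card_eq_fintype_card (α := S) ▸ hy.cop.coprime_dvd_left hdvd) (hy.act hS)
    ((domCongrAut (R := ℂ) (A := ℂ)).comp α) hθ (by
      rintro s ⟨_, k, hk, rfl⟩ x hx
      refine ⟨hx.1.dc (hy.invL s), ?_, dc_mem_fixedAlg hx.2.2 fun g hg => map_inv α s ▸ hy.invL s⁻¹ g hg⟩
      change _ * dc (α s) x = dc (α s) x
      rw [← hθ s, ← map_mul, hx.2.1]) (hy.prod_act hD hS)
  let π : G → D.map (QuotientGroup.mk' L) := fun g =>
    if h : (g : G ⧸ L) ∈ D.map (QuotientGroup.mk' L) then ⟨g, h⟩ else 1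
  have hπ : ∀ k ∈ D, (π k : G ⧸ L) = k := fun k hk => by
    simp only [π, dif_pos (show (k : G ⧸ L) ∈ D.map (QuotientGroup.mk' L) from ⟨k, hk, rfl⟩)]
  have hπm : ∀ k ∈ D, ∀ k' ∈ D, π (k * k') = π k * π k' := fun k hk k' hk' => Subtype.ext (by
    rw [hπ _ (D.mul_mem hk hk'), Subgroup.coe_mul, hπ k hk, hπ k' hk', QuotientGroup.mk_mul])
  refine ⟨fun g => u (π g), fun g g' => a (π g) (π g'), fun k hk => hπ k hk ▸ (h1 _).1, fun k _ => (h1 _).2.1,
    fun k _ => (h1 _).2.2, ?_, fun k k' e => by simp only [π, e], fun k hk k' hk' => by rw [h3, hπm k hk k' hk'],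
    fun k hk k' hk' r _ => by rw [hπm k hk k' hk', h4], fun k hk k' hk' r _ => by rw [hπm k hk k' hk', h5],
    fun k _ => h6 _, fun s k hk => (h7 s _).trans (congrArg u (Subtype.ext ?_))⟩
  · rw [← h2]
    exact congrArg u (Subtype.ext (hπ 1 D.one_mem))
  · rw [hπ _ (hS s k hk)]
    change glQuotHom α L hy.invL s (π k) = _
    rw [hπ k hk, glQuotHom_mk]

namespace Fam

variable {D : Subgroup G} {θ : IrrCharacter L} {u : G → ℂ[G]} {a : G → G → ℂˣ} (h : Fam α D θ u a)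
include h

theorem right {k : G} (hk : k ∈ D) : u k * idm L θ = u k := by
  rw [← commute_of_supp (idm_supp θ) (h.fix k hk), h.left k hk]

theorem of_mem {l : G} (hl : l ∈ L) : u l = idm L θ := by
  rw [← h.one]
  exact h.coset _ _ ((QuotientGroup.eq_one_iff l).mpr hl)

theorem a_one_left {k : G} (hk : k ∈ D) : a 1 k = 1 := by
  simpa using h.al 1 D.one_mem 1 D.one_mem k hk

theorem a_one_right {k : G} (hk : k ∈ D) : a k 1 = 1 := by
  simpa using h.ar 1 D.one_mem 1 D.one_mem k hk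

theorem a_inv_left {k r : G} (hk : k ∈ D) (hr : r ∈ D) : a k⁻¹ r = (a k r)⁻¹ := by
  rw [eq_inv_iff_mul_eq_one, ← h.al _ (D.inv_mem hk) k hk r hr, inv_mul_cancel, h.a_one_left hr]

theorem a_inv_right {k r : G} (hk : k ∈ D) (hr : r ∈ D) : a r k⁻¹ = (a r k)⁻¹ := by
  rw [eq_inv_iff_mul_eq_one, ← h.ar _ (D.inv_mem hk) k hk r hr, inv_mul_cancel, h.a_one_right hr]

theorem a_skew {k r : G} (hk : k ∈ D) (hr : r ∈ D) : a r k = (a k r)⁻¹ := by
  have := h.self _ (D.mul_mem hk hr)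
  rw [h.al k hk r hr _ (D.mul_mem hk hr), h.ar k hk r hr k hk, h.ar k hk r hr r hr, h.self k hk, h.self r hr,
    one_mul, mul_one] at this
  exact eq_inv_of_mul_eq_one_right this

theorem a_pow {k r : G} (hk : k ∈ D) (hr : r ∈ D) (n : ℕ) : a (k ^ n) r = a k r ^ n := by
  induction n with
  | zero => simpa using h.a_one_left hr
  | succ n ih => rw [pow_succ, h.al _ (D.pow_mem hk n) k hk r hr, ih, pow_succ]

theorem mul_inv {k : G} (hk : k ∈ D) : u k * u k⁻¹ = idm L θ := by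
  rw [h.mul k hk _ (D.inv_mem hk), h.a_inv_right hk hk, h.self k hk, mul_inv_cancel, h.one, inv_one, Units.val_one,
    one_smul]

theorem inv_mul {k : G} (hk : k ∈ D) : u k⁻¹ * u k = idm L θ := by simpa using h.mul_inv (D.inv_mem hk)

theorem ne_zero {k : G} (hk : k ∈ D) : u k ≠ 0 := fun e => idm_ne_zero θ (by rw [← h.mul_inv hk, e, zero_mul])

theorem line {k : G} (hk : k ∈ D) {x : ℂ[G]} (h1 : Sup L (k : G ⧸ L) x) (h2 : idm L θ * x = x)
    (h3 : x ∈ fixedAlg ℂ L) : ∃ c : ℂ, x = c • u k := by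
  have h4 := h1.mul (h.sup _ (D.inv_mem hk))
  rw [QuotientGroup.mk_inv, mul_inv_cancel] at h4
  obtain ⟨c, hc⟩ := exists_smul_idm (θ := θ) h4 (by rw [← mul_assoc, h2]) (mul_mem h3 (h.fix _ (D.inv_mem hk)))
  refine ⟨c, ?_⟩
  rw [← h.left k hk, ← smul_mul_assoc, ← hc, mul_assoc, h.inv_mul hk, ← commute_of_supp (idm_supp θ) h3, h2]

theorem unique (hy : Hyp α K L H) (hLD : L ≤ D) (hD : D ≤ K) (hS : ∀ s, ∀ k ∈ D, α s k ∈ D)
    {u' : G → ℂ[G]} {a' : G → G → ℂˣ} (h' : Fam α D θ u' a') {k : G} (hk : k ∈ D) : u' k = u k := by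
  have h1 : ∀ k, ∃ c : ℂ, k ∈ D → u' k = c • u k := fun k => by
    by_cases hk : k ∈ D
    · exact (h.line hk (h'.sup k hk) (h'.left k hk) (h'.fix k hk)).imp fun c hc _ => hc
    · exact ⟨0, fun e => (hk e).elim⟩
  choose μ hμ using h1
  have h0 : ∀ k ∈ D, μ k ≠ 0 := fun k hk e => h'.ne_zero hk (by rw [hμ k hk, e, zero_smul])
  have h2 : ∀ k ∈ D, ∀ c, u' k = c • u k → μ k = c := fun k hk c e =>
    smul_left_injective ℂ (h.ne_zero hk) ((hμ k hk).symm.trans e)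
  have h3 : ∀ k ∈ D, ∀ r ∈ D, μ k * μ r * a k r = a' k r * μ (k * r) := fun k hk r hr =>
    smul_left_injective ℂ (h.ne_zero (D.mul_mem hk hr)) (by
      simp only [← smul_smul]
      rw [← hμ _ (D.mul_mem hk hr), ← h'.mul k hk r hr, ← h.mul k hk r hr, hμ k hk, hμ r hr, smul_mul_smul_comm,
        smul_smul])
  have h4 : ∀ k ∈ D, ∀ r ∈ D, a' k r = a k r := fun k hk r hr => by
    have h5 := h3 r hr k hk
    rw [h2 _ (D.mul_mem hr hk) (μ (k * r)) (by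
      rw [h.coset _ _ (hy.mk_comm (hD hr) (hD hk)), h'.coset _ _ (hy.mk_comm (hD hr) (hD hk)),
        hμ _ (D.mul_mem hk hr)]), h.a_skew hk hr, h'.a_skew hk hr] at h5
    have h6 : a' k r ^ 2 = a k r ^ 2 := Units.ext (by
      have h7 := h3 k hk r hr
      have h8 := h0 _ (D.mul_mem hk hr)
      simp only [Units.val_inv_eq_inv_val] at h5
      simp only [Units.val_pow_eq_pow_val]
      field_simp at h5
      apply mul_right_cancel₀ h8
      linear_combination (-(a' k r : ℂ)) * h7 + (a k r : ℂ) * h5)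
    obtain ⟨m, hm⟩ := hy.odd
    have h7 := h.a_pow hk hr (2 * m + 1)
    have h8 := h'.a_pow hk hr (2 * m + 1)
    rw [← hm, pow_card_eq_one'] at h7 h8
    rw [h.a_one_left hr, hm, pow_succ, pow_mul, ← h6] at h7
    rw [h'.a_one_left hr, hm, pow_succ, pow_mul] at h8
    exact mul_left_cancel (h8.symm.trans h7)
  rw [hμ k hk, hy.hom_triv hLD hD hS (fun l hl => h2 l (hLD hl) 1 (by rw [h.of_mem hl, h'.of_mem hl, one_smul]))
    (fun k hk r hr => ?_) (fun s k hk => h2 _ (hS s k hk) _ ?_) hk, one_smul]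
  · have h5 := h3 k hk r hr
    rw [h4 k hk r hr, mul_comm] at h5
    exact (mul_left_cancel₀ (a k r).ne_zero h5).symm
  · rw [← h'.equi s k hk, ← h.equi s k hk, hμ k hk, map_smul]

theorem map {φ : MulAut G} (h1 : ∀ g ∈ L, φ g ∈ L) (h2 : ∀ g ∈ L, φ⁻¹ g ∈ L) (h3 : ∀ s, α s * φ = φ * α s)
    {D' : Subgroup G} (hD : ∀ k ∈ D', φ⁻¹ k ∈ D) {θ' : IrrCharacter L} (hθ : dc φ (idm L θ) = idm L θ') :
    Fam α D' θ' (fun k => dc φ (u (φ⁻¹ k))) fun k r => a (φ⁻¹ k) (φ⁻¹ r) where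
  sup k hk := by simpa using (h.sup _ (hD k hk)).dc h1
  left k hk := by rw [← hθ, ← map_mul, h.left _ (hD k hk)]
  fix k hk := dc_mem_fixedAlg (h.fix _ (hD k hk)) h2
  one := by rw [map_one, h.one, hθ]
  coset k k' e := by
    rw [h.coset (φ⁻¹ k) (φ⁻¹ k') (QuotientGroup.eq.mpr (by simpa using h2 _ (QuotientGroup.eq.mp e)))]
  mul k hk r hr := by rw [← map_mul, h.mul _ (hD k hk) _ (hD r hr), map_smul, map_mul φ⁻¹]
  al k hk k' hk' r hr := by rw [map_mul, h.al _ (hD k hk) _ (hD k' hk') _ (hD r hr)]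
  ar k hk k' hk' r hr := by rw [map_mul, h.ar _ (hD k hk) _ (hD k' hk') _ (hD r hr)]
  self k hk := h.self _ (hD k hk)
  equi s k hk := by
    rw [← dc_mul, h3, dc_mul, h.equi s _ (hD k hk), ← MulAut.mul_apply, ← MulAut.mul_apply,
      (Commute.inv_right (h3 s)).eq]

end Fam

end CL.Blk.Isa
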