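/-
The Isaacs correspondence step, part 4: the canonical involution over an invariant character.
-/
import Cfsg.Agent.Blk.Isa3

set_option autoImplicit false
set_option linter.unusedSectionVars false

namespace CL.Blk.Isa

open MonoidAlgebra Cfsg CL.Char
open scoped MonoidAlgebra ComplexConjugate Classical

variable {G S : Type*} [Group G] [Fintype G] [Group S] [Finite S]

theorem sum_of_le {M : Type*} [AddCommMonoid M] {D K : Subgroup G} (hDK : D ≤ K) (f : G → M)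
    (hf : ∀ k ∈ K, k ∉ D → f k = 0) : ∑ k : K, f k = ∑ k : D, f k :=
  (Fintype.sum_of_injective (Subgroup.inclusion hDK) (Subgroup.inclusion_injective hDK) _ _
    (fun k hk => hf k k.2 fun e => hk ⟨⟨k, e⟩, rfl⟩) fun _ => rfl).symm

theorem sum_mul_sum_eq {K H : Subgroup G} (h : ∀ g, ∃ k ∈ K, ∃ c ∈ H, g = k * c) (Φ : G → ℂ) :
    Nat.card G * ∑ k : K, ∑ c : H, Φ (k * c) = Nat.card K * Nat.card H * ∑ g, Φ g := by
  have h1 : ∀ g, ∑ k : K, ∑ c : H, Φ (k * c) = ∑ k : K, ∑ c : H, Φ (k * g * c) := fun g => by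
    obtain ⟨k₀, hk, c₀, hc, rfl⟩ := h g
    refine (Fintype.sum_equiv (Equiv.mulRight ⟨k₀, hk⟩) _ _ fun k => ?_).symm
    exact Fintype.sum_equiv (Equiv.mulLeft ⟨c₀, hc⟩) _ _ fun c => by simp [mul_assoc]
  have h2 : ∀ k c : G, ∑ g, Φ (k * g * c) = ∑ g, Φ g := fun k c =>
    Fintype.sum_equiv ((Equiv.mulLeft k).trans (Equiv.mulRight c)) _ _ fun g => rfl
  calc _ = ∑ g : G, ∑ k : K, ∑ c : H, Φ (k * g * c) := by
        rw [← Finset.sum_congr rfl fun g _ => h1 g]; simp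
    _ = ∑ k : K, ∑ c : H, ∑ g : G, Φ (k * g * c) := by
        rw [Finset.sum_comm]
        exact Finset.sum_congr rfl fun k _ => Finset.sum_comm
    _ = _ := by simp only [h2]; simp [mul_assoc]

theorem exists_mul_conj (hodd : Odd (Nat.card G)) {D : Subgroup G} {x : G} (hx : ∀ w ∈ D, x * w * x⁻¹ ∈ D) {v : G}
    (hv : v ∈ D) : ∃ w ∈ D, w * (x * w * x⁻¹) = v := by
  let f : D → D := fun w => ⟨w * (x * w * x⁻¹), D.mul_mem w.2 (hx w w.2)⟩
  have hf : Function.Injective f := fun w w' e => by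
    have h1 : ((w : G) * x) ^ 2 = ((w' : G) * x) ^ 2 := by
      have h2 : (w : G) * (x * w * x⁻¹) = w' * (x * w' * x⁻¹) := congrArg Subtype.val e
      simp only [← mul_assoc, mul_left_inj] at h2
      simp only [sq, ← mul_assoc, h2]
    exact Subtype.ext (mul_right_cancel ((powCoprime (Nat.coprime_two_right.mpr hodd)).injective h1))
  obtain ⟨w, hw⟩ := Finite.surjective_of_injective hf ⟨v, hv⟩
  exact ⟨w, w.2, congrArg Subtype.val hw⟩

/-- The normalising factor. -/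
noncomputable def nn (τ : ℂ[G]) : ℕ := sInf {n : ℕ | τ * τ * τ = (n : ℂ) • τ}

theorem nn_dc (φ : MulAut G) (τ : ℂ[G]) : nn (dc φ τ) = nn τ := by
  simp only [nn, ← map_mul, ← map_smul, (dc φ).injective.eq_iff]

theorem nn_eq {τ : ℂ[G]} (h0 : τ ≠ 0) {n : ℕ} (h : τ * τ * τ = (n : ℂ) • τ) : nn τ = n :=
  Nat.cast_injective (R := ℂ) (smul_left_injective ℂ h0
    ((Nat.sInf_mem (s := {n : ℕ | τ * τ * τ = (n : ℂ) • τ}) ⟨n, h⟩).symm.trans h))

/-- The normalised element. -/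
noncomputable def nrm (τ : ℂ[G]) : ℂ[G] := ((√(nn τ) : ℝ) : ℂ)⁻¹ • τ

theorem nrm_dc (φ : MulAut G) (τ : ℂ[G]) : nrm (dc φ τ) = dc φ (nrm τ) := by rw [nrm, nrm, nn_dc, map_smul]

theorem evalFun_eq_zero_of_ne {L : Subgroup G} [L.Normal] {χ : G → ℂ} (hχ : IsClassFunction G χ)
    {θ : IrrCharacter L} {y : ℂ[G]} (h1 : idm L θ * y = y) (h2 : y * idm L θ = y) {g : G}
    (hg : sg g * idm L θ ≠ idm L θ * sg g) : evalFun χ (y * sg g) = 0 := by
  have h3 : idm L θ * (sg g * idm L θ * sg g⁻¹) = 0 := idm_mul_conj fun e => hg (by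
    conv_rhs => rw [← e, mul_assoc, sg_inv_mul, mul_one])
  have h4 : y * sg g * idm L θ = y * (idm L θ * (sg g * idm L θ * sg g⁻¹)) * sg g := by
    simp only [← mul_assoc, h2]
    rw [mul_assoc _ (sg g⁻¹), sg_inv_mul, mul_one]
  rw [← h1, mul_assoc, evalFun_mul_comm hχ, h4, h3, mul_zero, zero_mul, map_zero]

variable {α : S →* MulAut G} {K L H : Subgroup G} [hL : L.Normal]

theorem Hyp.mem_of_mem (hy : Hyp α K L H) {k : G} (hk : k ∈ K) (hH : k ∈ H) : k ∈ L := by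
  obtain ⟨l, hl, c, hc, rfl⟩ := hy.HLC k hH
  refine L.mul_mem hl (hy.fp c ((K.mul_mem_cancel_left (hy.LK hl)).mp hk) fun s => ?_)
  rw [hc, inv_mul_cancel]
  exact L.one_mem

namespace Fam

variable {D : Subgroup G} {θ : IrrCharacter L} {u : G → ℂ[G]} {a : G → G → ℂˣ} (h : Fam α D θ u a)

/-- The radical of the form. -/
def rad : Subgroup G where
  carrier := {r | r ∈ D ∧ ∀ k ∈ D, a k r = 1}
  mul_mem' := fun {x y} hx hy => ⟨D.mul_mem hx.1 hy.1, fun k hk => by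
    rw [h.ar x hx.1 y hy.1 k hk, hx.2 k hk, hy.2 k hk, one_mul]⟩
  one_mem' := ⟨D.one_mem, fun _ hk => h.a_one_right hk⟩
  inv_mem' := fun {x} hx => ⟨D.inv_mem hx.1, fun k hk => by rw [h.a_inv_right hx.1 hk, hx.2 k hk, inv_one]⟩

theorem rad_le : h.rad ≤ D := fun _ hr => hr.1

theorem le_rad (hLD : L ≤ D) : L ≤ h.rad := fun l hl => ⟨hLD hl, fun k hk => Units.ext
  (smul_left_injective ℂ (h.ne_zero hk) (by
    have := h.mul k hk l (hLD hl)
    rw [h.of_mem hl, h.right hk, h.coset (k * l) k (by simp [(QuotientGroup.eq_one_iff l).mpr hl])] at this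
    simp [← this]))⟩

theorem rad_inv (hS : ∀ s, ∀ k ∈ D, α s k ∈ D) (s : S) (r : G) (hr : r ∈ h.rad) : α s r ∈ h.rad :=
  ⟨hS s r hr.1, fun k hk => Units.ext (smul_left_injective ℂ (h.ne_zero (D.mul_mem hk (hS s r hr.1))) (by
    have h1 := congrArg (dc (α s)) (h.mul _ (hS s⁻¹ k hk) r hr.1)
    rw [map_mul, map_smul, h.equi s _ (hS s⁻¹ k hk), h.equi s r hr.1, h.equi s _ (D.mul_mem (hS s⁻¹ k hk) hr.1),
      hr.2 _ (hS s⁻¹ k hk), map_mul (α s), ← MulAut.mul_apply, ← map_mul, mul_inv_cancel, map_one,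
      MulAut.one_apply, h.mul k hk _ (hS s r hr.1)] at h1
    exact h1))⟩

theorem mul_rad {k r : G} (hk : k ∈ D) (hr : r ∈ h.rad) : u k * u r = u (k * r) := by
  rw [h.mul k hk r hr.1, hr.2 k hk, Units.val_one, one_smul]

theorem rad_mul {k r : G} (hk : k ∈ D) (hr : r ∈ h.rad) : u r * u k = u (r * k) := by
  rw [h.mul r hr.1 k hk, h.a_skew hk hr.1, hr.2 k hk, inv_one, Units.val_one, one_smul]

theorem tau_mul_rad {r : G} (hr : r ∈ h.rad) : (∑ k : D, u k) * u r = ∑ k : D, u k := by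
  rw [Finset.sum_mul]
  exact Fintype.sum_equiv (Equiv.mulRight (⟨r, hr.1⟩ : D)) _ _ fun k => h.mul_rad k.2 hr

include h

theorem tau_mul (hy : Hyp α K L H) (hD : D ≤ K) {w : G} (hw : w ∈ D) :
    (∑ k : D, u k) * u w = u w⁻¹ * ∑ k : D, u k := by
  rw [Finset.sum_mul, Finset.mul_sum]
  refine Fintype.sum_equiv (Equiv.mulLeft (⟨w, hw⟩ * ⟨w, hw⟩)) _ _ fun k => ?_
  have h1 := D.mul_mem hw hw
  have h2 := D.inv_mem hw
  change u k * u w = u w⁻¹ * u (w * w * k)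
  rw [h.mul k k.2 w hw, h.mul _ h2 _ (D.mul_mem h1 k.2), h.ar _ h1 k k.2 _ h2, h.ar _ hw _ hw _ h2,
    h.a_inv_left hw hw, h.self w hw, h.a_inv_left hw k.2, ← h.a_skew hw k.2, mul_assoc w, inv_mul_cancel_left,
    h.coset _ _ (hy.mk_comm (hD hw) (hD k.2))]
  simp

theorem tau_mul_tau : (∑ k : D, u k) * (∑ k : D, u k) = (Nat.card D : ℂ) • ∑ r : h.rad, u r := by
  have h1 : ∀ k : D, u k * ∑ w : D, u w = ∑ w : D, (a k w : ℂ) • u w := fun k => by
    rw [Finset.mul_sum]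
    refine Fintype.sum_equiv (Equiv.mulLeft k) _ _ fun w => ?_
    change _ = (a k (k * w) : ℂ) • u (k * w)
    rw [h.mul k k.2 w w.2, h.ar k k.2 w w.2 k k.2, h.self k k.2, one_mul]
  rw [Finset.sum_mul, Finset.sum_congr rfl fun k _ => h1 k, Finset.sum_comm]
  simp only [← Finset.sum_smul]
  rw [sum_of_le h.rad_le (fun w => (∑ k : D, (a k w : ℂ)) • u w), Finset.smul_sum]
  · refine Finset.sum_congr rfl fun r _ => ?_
    rw [Finset.sum_congr rfl fun (k : D) _ => congrArg Units.val (r.2.2 k k.2)]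
    simp
  · intro w hw hr
    let f : D →* ℂ := (Units.coeHom ℂ).comp (MonoidHom.mk' (fun k : D => a k w) fun k k' => h.al k k.2 k' k'.2 w hw)
    have : f ≠ 1 := fun e => hr ⟨hw, fun k hk => Units.ext (show f ⟨k, hk⟩ = 1 from DFunLike.congr_fun e _)⟩
    rw [show ∑ k : D, (a k w : ℂ) = 0 from sum_hom_units_eq_zero f this, zero_smul]

theorem coeff_tau_mul (hy : Hyp α K L H) (hLD : L ≤ D) (hD : D ≤ K) {x : ℂ[G]} (hx : ∀ g, g ∉ H → x.coeff g = 0) :
    ((∑ k : D, u k) * x).coeff 1 = Nat.card L * (idm L θ * x).coeff 1 := by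
  rw [Finset.sum_mul, coeff_sum_apply, sum_of_le hLD (fun k => (u k * x).coeff 1),
    Finset.sum_congr rfl fun l _ => by rw [h.of_mem l.2]]
  · simp
  · intro k hk hl
    rw [coeff_mul_sum]
    refine Finset.sum_eq_zero fun g _ => ?_
    by_cases hg : (g : G ⧸ L) = k
    · rw [hx _ fun e => hl (hy.mem_of_mem (hD hk) ?_), mul_zero]
      rw [mul_one, inv_mem_iff] at e
      exact (H.mul_mem_cancel_left (H.inv_mem e)).mp (hy.LH (QuotientGroup.eq.mp hg))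
    · rw [h.sup k hk g hg, zero_mul]

theorem nn_tau (hy : Hyp α K L H) (hLD : L ≤ D) (hD : D ≤ K) :
    nn (∑ k : D, u k) = Nat.card D * Nat.card h.rad := by
  refine nn_eq (fun e => ?_) ?_
  · have h1 := h.coeff_tau_mul hy hLD hD (x := 1) fun g hg => by
      rw [coeff_one_ite, if_neg fun e : g = 1 => hg (e ▸ H.one_mem)]
    rw [e, zero_mul, mul_one, idm, coeff_incl_of_mem _ _ L.one_mem, coeff_charIdem, coeff_zero_apply] at h1
    change 0 = _ * (_ * (_ * conj ((θ : L → ℂ) 1))) at h1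
    simp [irr_one_ne_zero θ] at h1
  · rw [mul_assoc, h.tau_mul_tau, mul_smul_comm, Finset.mul_sum,
      Finset.sum_congr rfl fun r _ => h.tau_mul_rad r.2]
    simp [← Nat.cast_smul_eq_nsmul ℂ, smul_smul]

theorem nrm_mul_nrm (hy : Hyp α K L H) (hLD : L ≤ D) (hD : D ≤ K) :
    nrm (∑ k : D, u k) * nrm (∑ k : D, u k) = (Nat.card h.rad : ℂ)⁻¹ • ∑ r : h.rad, u r := by
  rw [nrm, smul_mul_smul_comm, h.tau_mul_tau, smul_smul, ← _root_.mul_inv, ← Complex.ofReal_mul,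
    Real.mul_self_sqrt (Nat.cast_nonneg _), h.nn_tau hy hLD hD]
  congr 1
  have : (Nat.card D : ℂ) ≠ 0 := natCard_ne_zero
  push_cast
  field_simp

theorem nrm_cube (hy : Hyp α K L H) (hLD : L ≤ D) (hD : D ≤ K) :
    nrm (∑ k : D, u k) * (nrm (∑ k : D, u k) * nrm (∑ k : D, u k)) = nrm (∑ k : D, u k) := by
  rw [h.nrm_mul_nrm hy hLD hD, nrm, smul_mul_smul_comm, Finset.mul_sum,
    Finset.sum_congr rfl fun r _ => h.tau_mul_rad r.2, Finset.sum_const, ← Nat.cast_smul_eq_nsmul ℂ, smul_smul,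
    Finset.card_univ, ← Nat.card_eq_fintype_card, inv_mul_cancel_right₀ natCard_ne_zero]

theorem idm_mul_nrm : idm L θ * nrm (∑ k : D, u k) = nrm (∑ k : D, u k) := by
  rw [nrm, mul_smul_comm, Finset.mul_sum, Finset.sum_congr rfl fun (k : D) _ => h.left k k.2]

theorem nrm_mul_idm : nrm (∑ k : D, u k) * idm L θ = nrm (∑ k : D, u k) := by
  rw [nrm, smul_mul_assoc, Finset.sum_mul, Finset.sum_congr rfl fun (k : D) _ => h.right k.2]

theorem nrm_mem : nrm (∑ k : D, u k) ∈ fixedAlg ℂ L :=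
  Subalgebra.smul_mem _ (Subalgebra.sum_mem _ fun (k : D) _ => h.fix k k.2) _

theorem dc_nrm (hS : ∀ s, ∀ k ∈ D, α s k ∈ D) (s : S) :
    dc (α s) (nrm (∑ k : D, u k)) = nrm (∑ k : D, u k) := by
  rw [← nrm_dc, map_sum]
  congr 1
  exact Fintype.sum_equiv (glRestrict α D hS s).toEquiv _ _ fun k => h.equi s k k.2

theorem nrm_mul (hy : Hyp α K L H) (hD : D ≤ K) {w : G} (hw : w ∈ D) :
    nrm (∑ k : D, u k) * u w = u w⁻¹ * nrm (∑ k : D, u k) := by
  rw [nrm, smul_mul_assoc, h.tau_mul hy hD hw, mul_smul_comm]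

theorem supp_inv_mul {k : G} (hk : k ∈ D) (g : G) (hg : g ∉ L) : (u k⁻¹ * sg k).coeff g = 0 := by
  have := (h.sup _ (D.inv_mem hk)).mul (sup_sg k)
  rw [QuotientGroup.mk_inv, inv_mul_cancel] at this
  exact sup_one_iff.mp this g hg

theorem sg_mul_rad (hy : Hyp α K L H) (hD : D ≤ K) {k r : G} (hk : k ∈ D)
    (hc : sg k * idm L θ = idm L θ * sg k) (hr : r ∈ h.rad) : sg k * u r = u r * sg k := by
  rw [← h.left r hr.1, ← mul_assoc, hc, ← h.mul_inv hk, mul_assoc (u k), mul_assoc,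
    commute_of_supp (h.supp_inv_mul hk) (h.fix r hr.1), ← mul_assoc, h.mul_rad hk hr,
    h.coset _ _ (hy.mk_comm (hD hk) (hD hr.1)), ← h.rad_mul hk hr, mul_assoc, ← mul_assoc (u k), h.mul_inv hk,
    ← mul_assoc, h.right hr.1, h.left r hr.1]

theorem eval_mul_eval (hy : Hyp α K L H) (hD : D ≤ K) {χ χ' : G → ℂ} (hχ : IsClassFunction G χ)
    (hχ' : IsClassFunction G χ') {t : ℂ[G]} (ht : t = nrm (∑ k : D, u k)) {x : G} (hx : ∀ w ∈ D, x * w * x⁻¹ ∈ D)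
    (hu : ∀ w ∈ D, sg x * u w * sg x⁻¹ = u (x * w * x⁻¹)) {v : G} (hv : v ∈ D) :
    evalFun χ (t * sg x) * evalFun χ' (t * sg x⁻¹) =
      evalFun χ (t * u v * sg x) * evalFun χ' (sg x⁻¹ * u v⁻¹ * t) := by
  obtain ⟨w, hw, rfl⟩ := exists_mul_conj hy.odd hx hv
  have h0 := D.inv_mem hw
  have h1 : t * u w = u w⁻¹ * t := ht ▸ h.nrm_mul hy hD hw
  have h2 : idm L θ * t = t := ht ▸ h.idm_mul_nrm
  have h3 : t * idm L θ = t := ht ▸ h.nrm_mul_idm
  have h4 : evalFun χ (t * sg x) = a w (x * w * x⁻¹) * evalFun χ (t * u (w * (x * w * x⁻¹)) * sg x) := by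
    rw [← smul_eq_mul (a _ _ : ℂ), ← map_smul, ← smul_mul_assoc, ← mul_smul_comm, ← h.mul w hw _ (hx w hw), ← hu w hw,
      ← mul_assoc t, h1]
    simp only [mul_assoc, sg_inv_mul, mul_one]
    rw [evalFun_mul_comm hχ (u w⁻¹), mul_assoc, mul_assoc, h.mul_inv hw, ← mul_assoc, evalFun_mul_comm hχ _ (idm L θ),
      ← mul_assoc, h2]
  have h5 : evalFun χ' (t * sg x⁻¹) =
      a (x * w⁻¹ * x⁻¹) w⁻¹ * evalFun χ' (sg x⁻¹ * u (w * (x * w * x⁻¹))⁻¹ * t) := by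
    rw [show (w * (x * w * x⁻¹))⁻¹ = x * w⁻¹ * x⁻¹ * w⁻¹ by group, ← smul_eq_mul (a _ _ : ℂ), ← map_smul,
      ← smul_mul_assoc, ← mul_smul_comm, ← h.mul _ (hx _ h0) _ h0, ← hu _ h0]
    simp only [mul_assoc, sg_inv_mul_sg_mul]
    rw [← h1, evalFun_mul_comm hχ' (u w⁻¹), mul_assoc, mul_assoc, h.mul_inv hw, h3, evalFun_mul_comm hχ']
  rw [h4, h5, show x * w⁻¹ * x⁻¹ = (x * w * x⁻¹)⁻¹ by group, h.a_inv_left (hx w hw) h0,
    h.a_inv_right hw (hx w hw), inv_inv, h.a_skew hw (hx w hw), mul_mul_mul_comm, ← Units.val_mul, mul_inv_cancel,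
    Units.val_one, one_mul]

end Fam

end CL.Blk.Isa
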