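/-
The Isaacs correspondence step, part 5: the global involution and the isometry.
-/
import Cfsg.Agent.Blk.Isa4

set_option autoImplicit false
set_option linter.unusedSectionVars false

namespace CL.Blk.Isa

open MonoidAlgebra Cfsg CL.Char
open scoped MonoidAlgebra ComplexConjugate Classical

variable {G S : Type*} [Group G] [Fintype G] [Group S] [Finite S]
variable {α : S →* MulAut G} {K L H : Subgroup G} [hL : L.Normal] [hK : K.Normal]

/-- The inertia group in `K`. -/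
def Dg (K : Subgroup G) (θ : IrrCharacter L) : Subgroup G where
  carrier := {k | k ∈ K ∧ sg k * idm L θ = idm L θ * sg k}
  mul_mem' := fun {x y} hx hy => ⟨K.mul_mem hx.1 hy.1, by
    rw [← sg_mul, mul_assoc, hy.2, ← mul_assoc, hx.2, mul_assoc]⟩
  one_mem' := ⟨K.one_mem, by rw [sg_one, one_mul, mul_one]⟩
  inv_mem' := fun {x} hx => ⟨K.inv_mem hx.1, by
    rw [← sg_inv_mul_sg_mul x (idm L θ * _), ← mul_assoc (sg x), hx.2, mul_assoc, sg_mul_inv, mul_one]⟩

/-- Invariance under the operator group. -/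
def Inv (α : S →* MulAut G) (x : ℂ[G]) : Prop := ∀ s, dc (α s) x = x

theorem Dg_le (θ : IrrCharacter L) : Dg K θ ≤ K := fun _ h => h.1

theorem Hyp.le_Dg (hy : Hyp α K L H) (θ : IrrCharacter L) : L ≤ Dg K θ := fun l hl =>
  ⟨hy.LK hl, mem_fixedAlg'.mp (idm_mem θ) l hl⟩

theorem Hyp.Dg_inv (hy : Hyp α K L H) {θ : IrrCharacter L} (hθ : Inv α (idm L θ)) (s : S) (k : G)
    (hk : k ∈ Dg K θ) : α s k ∈ Dg K θ :=
  ⟨hy.invK s k hk.1, by rw [← hθ s, ← dc_sg, ← map_mul, hk.2, map_mul]⟩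

theorem conj_eq_iff {x : G} {y : ℂ[G]} : sg x * y * sg x⁻¹ = y ↔ sg x * y = y * sg x :=
  ⟨fun e => by conv_rhs => rw [← e, mul_assoc, sg_inv_mul, mul_one],
    fun e => by rw [e, mul_assoc, sg_mul_inv, mul_one]⟩

theorem Hyp.mem_Dg (hy : Hyp α K L H) {θ : IrrCharacter L} (hθ : Inv α (idm L θ)) {k : G} (hk : k ∈ K)
    (h : Inv α (sg k * idm L θ * sg k⁻¹)) : k ∈ Dg K θ :=
  hy.fp' (hy.le_Dg θ) hk fun s => ⟨K.mul_mem (K.inv_mem hk) (hy.invK s k hk), conj_eq_iff.mp (by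
    have h1 := h s
    rw [map_mul, map_mul, hθ s, dc_sg, dc_sg, map_inv] at h1
    rw [mul_inv_rev, inv_inv, ← sg_mul, ← sg_mul, mul_assoc (sg k⁻¹), ← mul_assoc _ _ (sg k), mul_assoc (sg k⁻¹), h1]
    simp only [mul_assoc, sg_inv_mul_sg_mul, sg_inv_mul, mul_one])⟩

theorem Inv.conj {x : ℂ[G]} (hx : Inv α x) {c : G} (hc : ∀ s, α s c = c) : Inv α (sg c * x * sg c⁻¹) := fun s => by
  rw [map_mul, map_mul, hx s, dc_sg, dc_sg, map_inv, hc]

theorem Hyp.inv_conj (hy : Hyp α K L H) {θ : IrrCharacter L} (hθ : Inv α (idm L θ)) {x : G} (hx : x ∈ H) :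
    Inv α (sg x * idm L θ * sg x⁻¹) := by
  obtain ⟨l, hl, c, hc, rfl⟩ := hy.HLC x hx
  obtain ⟨η, hη⟩ := exists_conj_idm c θ
  have : sg (l * c) * idm L θ * sg (l * c)⁻¹ = sg l * (sg c * idm L θ * sg c⁻¹) * sg l⁻¹ := by
    simp only [mul_inv_rev, ← sg_mul, mul_assoc]
  rw [this, hη, conj_eq_iff.mpr (mem_fixedAlg'.mp (idm_mem η) l hl), ← hη]
  exact hθ.conj hc

variable (α K) in
/-- The chosen family. -/
noncomputable def uu (θ : IrrCharacter L) : G → ℂ[G] :=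
  if h : ∃ u a, Fam α (Dg K θ) θ u a then h.choose else 0

theorem Hyp.fam (hy : Hyp α K L H) {θ : IrrCharacter L} (hθ : Inv α (idm L θ)) :
    ∃ a, Fam α (Dg K θ) θ (uu α K θ) a := by
  have h := hy.exists_fam (Dg_le θ) (hy.Dg_inv hθ) hθ fun k hk => hk.2
  rw [uu, dif_pos h]
  exact h.choose_spec

variable (α K) in
/-- The involution over an invariant character. -/
noncomputable def tt (θ : IrrCharacter L) : ℂ[G] := nrm (∑ k : Dg K θ, uu α K θ k)

theorem conj_mem_Dg {θ η : IrrCharacter L} {c : G} (e : sg c * idm L θ * sg c⁻¹ = idm L η) {k : G} :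
    c * k * c⁻¹ ∈ Dg K η ↔ k ∈ Dg K θ := by
  change _ ∧ _ ↔ _ ∧ _
  rw [hK.mem_comm_iff, inv_mul_cancel_left, ← e, ← dc_conj, ← MulAut.conj_apply, ← dc_sg, ← map_mul, ← map_mul,
    (dc _).injective.eq_iff]

theorem Hyp.conj_uu (hy : Hyp α K L H) {θ η : IrrCharacter L} (hθ : Inv α (idm L θ)) {c : G}
    (hc : ∀ s, α s c = c) (e : sg c * idm L θ * sg c⁻¹ = idm L η) {k : G} (hk : k ∈ Dg K θ) :
    sg c * uu α K θ k * sg c⁻¹ = uu α K η (c * k * c⁻¹) := by
  have hη : Inv α (idm L η) := e ▸ hθ.conj hc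
  obtain ⟨a, h⟩ := hy.fam hθ
  obtain ⟨a', h'⟩ := hy.fam hη
  have h1 := h.map (φ := MulAut.conj c) (fun g hg => hL.conj_mem g hg c)
    (fun g hg => by simpa using hL.conj_mem g hg c⁻¹) (fun s => MulEquiv.ext fun g => by simp [hc])
    (D' := Dg K η) (fun k hk => (conj_mem_Dg e).mp (by simpa [mul_assoc] using hk)) ((dc_conj _ _).trans e)
  have h2 := h'.unique hy (hy.le_Dg η) (Dg_le η) (hy.Dg_inv hη) h1 ((conj_mem_Dg e).mpr hk)
  rw [← h2, dc_conj]
  simp [mul_assoc]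

theorem Hyp.sum_conj (hy : Hyp α K L H) {θ η : IrrCharacter L} (hθ : Inv α (idm L θ)) {c : G}
    (hc : ∀ s, α s c = c) (e : sg c * idm L θ * sg c⁻¹ = idm L η) :
    dc (MulAut.conj c) (∑ k : Dg K θ, uu α K θ k) = ∑ k : Dg K η, uu α K η k := by
  rw [map_sum]
  exact Fintype.sum_equiv ((MulAut.conj c).toEquiv.subtypeEquiv fun k => (conj_mem_Dg e).symm) _ _ fun k => by
    rw [dc_conj, hy.conj_uu hθ hc e k.2]
    rfl

theorem Hyp.conj_tt (hy : Hyp α K L H) {θ η : IrrCharacter L} (hθ : Inv α (idm L θ)) {c : G}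
    (hc : ∀ s, α s c = c) (e : sg c * idm L θ * sg c⁻¹ = idm L η) : sg c * tt α K θ * sg c⁻¹ = tt α K η := by
  rw [tt, tt, ← hy.sum_conj hθ hc e, nrm_dc, dc_conj c (nrm _)]

theorem Hyp.conj_uu' (hy : Hyp α K L H) {θ : IrrCharacter L} (hθ : Inv α (idm L θ)) {x : G} (hx : x ∈ H)
    (e : sg x * idm L θ = idm L θ * sg x) {k : G} (hk : k ∈ Dg K θ) :
    sg x * uu α K θ k * sg x⁻¹ = uu α K θ (x * k * x⁻¹) := by
  obtain ⟨l, hl, c, hc, rfl⟩ := hy.HLC x hx
  obtain ⟨a, h⟩ := hy.fam hθ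
  have h1 : sg c * idm L θ * sg c⁻¹ = idm L θ := conj_eq_iff.mpr (by
    rw [← sg_inv_mul_sg_mul l (sg c * _), ← mul_assoc (sg l), sg_mul, e, ← sg_mul, ← mul_assoc (idm L θ),
      ← mem_fixedAlg'.mp (idm_mem θ) l hl, mul_assoc, sg_inv_mul_sg_mul])
  have h2 : sg (l * c) * uu α K θ k * sg (l * c)⁻¹ = sg l * (sg c * uu α K θ k * sg c⁻¹) * sg l⁻¹ := by
    simp only [mul_inv_rev, ← sg_mul, mul_assoc]
  rw [h2, hy.conj_uu hθ hc h1 hk, conj_eq_iff.mpr (mem_fixedAlg'.mp (h.fix _ ((conj_mem_Dg h1).mpr hk)) l hl)]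
  exact h.coset _ _ (by simp [(QuotientGroup.eq_one_iff l).mpr hl])

theorem Hyp.sum_tt (hy : Hyp α K L H) {θ : IrrCharacter L} (hθ : Inv α (idm L θ)) {χ χ' : G → ℂ}
    (hχ : IsClassFunction G χ) (hχ' : IsClassFunction G χ') :
    (Nat.card G * Nat.card (Dg K θ) : ℂ) *
      ∑ x : H, evalFun χ (tt α K θ * sg (x : G)) * evalFun χ' (tt α K θ * sg (x : G)⁻¹) =
    Nat.card K * Nat.card H * ∑ g, evalFun χ (tt α K θ * sg g) * evalFun χ' (sg g⁻¹ * tt α K θ) := by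
  obtain ⟨a, h⟩ := hy.fam hθ
  have h1 : idm L θ * tt α K θ = tt α K θ := h.idm_mul_nrm
  have h2 : tt α K θ * idm L θ = tt α K θ := h.nrm_mul_idm
  rw [← sum_mul_sum_eq (fun g => by
    obtain ⟨k, hk, c, hc, e⟩ := hy.GKC g
    exact ⟨k, hk, c, hy.CH c hc, e⟩), sum_of_le (Dg_le θ) (fun k => ∑ x : H,
      evalFun χ (tt α K θ * sg (k * x)) * evalFun χ' (sg (k * x)⁻¹ * tt α K θ)), mul_assoc]
  · congr 1
    rw [Nat.card_eq_fintype_card, ← nsmul_eq_mul, ← Finset.card_univ, ← Finset.sum_const]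
    refine Finset.sum_congr rfl fun v _ => ?_
    have h3 := casimir H ((evalFun χ).comp (LinearMap.mulLeft ℂ (tt α K θ * uu α K θ v)))
      ((evalFun χ').comp (LinearMap.mulRight ℂ (sg (v : G)⁻¹ * tt α K θ)))
      fun g hg => h.supp_inv_mul v.2 g fun e => hg (hy.LH e)
    have h4 : ∀ y, tt α K θ * (uu α K θ v * (uu α K θ (v : G)⁻¹ * y)) = tt α K θ * y := fun y => by
      rw [← mul_assoc (uu α K θ v), h.mul_inv v.2, ← mul_assoc, h2]
    simp only [LinearMap.comp_apply, LinearMap.mulLeft_apply, LinearMap.mulRight_apply, mul_assoc,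
      sg_mul_sg_inv_mul, h4] at h3
    simp only [mul_inv_rev, ← sg_mul, mul_assoc]
    rw [h3]
    refine Finset.sum_congr rfl fun x _ => ?_
    by_cases e : sg (x : G) * idm L θ = idm L θ * sg (x : G)
    · simpa only [mul_assoc] using h.eval_mul_eval hy (Dg_le θ) hχ hχ' (t := tt α K θ) rfl
        (fun w hw => (conj_mem_Dg (conj_eq_iff.mpr e)).mpr hw) (fun w hw => hy.conj_uu' hθ x.2 e hw) v.2
    · rw [evalFun_eq_zero_of_ne hχ h1 h2 e, ← mul_assoc (tt α K θ), evalFun_eq_zero_of_ne hχ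
        (by rw [← mul_assoc, h1]) (by rw [mul_assoc, h.right v.2]) e, zero_mul, zero_mul]
  · intro k hk hD
    refine Finset.sum_eq_zero fun x _ => ?_
    rw [evalFun_eq_zero_of_ne hχ h1 h2 fun e => hD ?_, zero_mul]
    refine (Subgroup.inv_mem_iff _).mp (hy.mem_Dg hθ (K.inv_mem hk) ?_)
    have h4 : sg k⁻¹ * idm L θ * sg k⁻¹⁻¹ = sg (x : G) * idm L θ * sg (x : G)⁻¹ := by
      conv_lhs => rw [← conj_eq_iff.mpr e]
      simp only [mul_inv_rev, ← sg_mul, mul_assoc, inv_inv, sg_inv_mul_sg_mul, sg_inv_mul, mul_one]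
    exact h4 ▸ hy.inv_conj hθ x.2

variable (α L) in
/-- The invariant characters of `L`. -/
noncomputable def invs : Finset (IrrCharacter L) := Finset.univ.filter fun θ => Inv α (idm L θ)

theorem mem_invs {θ : IrrCharacter L} : θ ∈ invs α L ↔ Inv α (idm L θ) := by simp [invs]

variable (α K L) in
/-- The global involution. -/
noncomputable def TT : ℂ[G] := ∑ θ ∈ invs α L, tt α K θ

theorem Hyp.idm_mul_tt (hy : Hyp α K L H) {θ : IrrCharacter L} (hθ : θ ∈ invs α L) :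
    idm L θ * tt α K θ = tt α K θ := (hy.fam (mem_invs.mp hθ)).choose_spec.idm_mul_nrm

theorem Hyp.tt_mul_idm (hy : Hyp α K L H) {θ : IrrCharacter L} (hθ : θ ∈ invs α L) :
    tt α K θ * idm L θ = tt α K θ := (hy.fam (mem_invs.mp hθ)).choose_spec.nrm_mul_idm

theorem Hyp.tt_cube (hy : Hyp α K L H) {θ : IrrCharacter L} (hθ : θ ∈ invs α L) :
    tt α K θ * (tt α K θ * tt α K θ) = tt α K θ :=
  (hy.fam (mem_invs.mp hθ)).choose_spec.nrm_cube hy (hy.le_Dg θ) (Dg_le θ)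

theorem Hyp.tt_mul_TT (hy : Hyp α K L H) {θ : IrrCharacter L} (hθ : θ ∈ invs α L) :
    tt α K θ * TT α K L = tt α K θ * tt α K θ := by
  rw [TT, Finset.mul_sum, Finset.sum_eq_single_of_mem θ hθ fun η hη e => ?_]
  rw [← hy.tt_mul_idm hθ, ← hy.idm_mul_tt hη, mul_assoc, ← mul_assoc (idm L θ), idm_mul_of_ne e.symm, zero_mul,
    mul_zero]

theorem Hyp.TT_mul_TT (hy : Hyp α K L H) : TT α K L * TT α K L = ∑ θ ∈ invs α L, tt α K θ * tt α K θ := by
  rw [← Finset.sum_congr rfl fun θ hθ => hy.tt_mul_TT hθ, ← Finset.sum_mul, ← TT]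

theorem Hyp.TT_cube (hy : Hyp α K L H) : TT α K L * TT α K L * TT α K L = TT α K L := by
  rw [hy.TT_mul_TT, Finset.sum_mul]
  exact Finset.sum_congr rfl fun θ hθ => by rw [mul_assoc, hy.tt_mul_TT hθ, hy.tt_cube hθ]

theorem Hyp.TT_inv (hy : Hyp α K L H) : Inv α (TT α K L) := fun s => by
  rw [TT, map_sum]
  exact Finset.sum_congr rfl fun θ hθ =>
    (hy.fam (mem_invs.mp hθ)).choose_spec.dc_nrm (hy.Dg_inv (mem_invs.mp hθ)) s

theorem Hyp.TT_mem (hy : Hyp α K L H) : TT α K L ∈ fixedAlg ℂ H := mem_fixedAlg'.mpr fun x hx => by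
  obtain ⟨l, hl, c, hc, rfl⟩ := hy.HLC x hx
  have h1 : TT α K L ∈ fixedAlg ℂ L :=
    Subalgebra.sum_mem _ fun θ hθ => (hy.fam (mem_invs.mp hθ)).choose_spec.nrm_mem
  have h2 : ∀ θ : IrrCharacter L, sg c * idm L θ * sg c⁻¹ = idm L (conjIrr c⁻¹ θ) := fun θ => by
    rw [idm, idm, incl_charIdem_conjIrr, inv_inv]
  have h3 : sg c * TT α K L * sg c⁻¹ = TT α K L := by
    rw [TT, Finset.mul_sum, Finset.sum_mul]
    refine Finset.sum_equiv (conjIrr c⁻¹) (fun θ => ?_) fun θ hθ => hy.conj_tt (mem_invs.mp hθ) hc (h2 θ)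
    rw [mem_invs, mem_invs, ← h2]
    refine ⟨fun h => h.conj hc, fun h => ?_⟩
    simpa only [mul_assoc, inv_inv, sg_inv_mul_sg_mul, sg_inv_mul, mul_one] using
      h.conj (c := c⁻¹) fun s => by rw [map_inv, hc]
  change sg (l * c) * _ = _ * sg (l * c)
  rw [← sg_mul, mul_assoc, conj_eq_iff.mp h3, ← mul_assoc, mem_fixedAlg'.mp h1 l hl, mul_assoc]

variable (α K L H) in
/-- The virtual character of `H` attached to a character of `G`. -/
noncomputable def star (χ : G → ℂ) : H → ℂ := fun h => evalFun χ (TT α K L * sg (h : G))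

theorem Hyp.exists_star (hy : Hyp α K L H) {χ : G → ℂ} (hχ : IsCharacter G χ) :
    ∃ φ φ' : H → ℂ, IsCharacter H φ ∧ IsCharacter H φ' ∧ star α K L H χ = φ - φ' ∧
      (fun h : H => evalFun χ (TT α K L * TT α K L * sg (h : G))) = φ + φ' := by
  have h1 := hy.TT_cube
  have h2 := hy.TT_mem
  unfold star
  generalize TT α K L = T at h1 h2
  have h3 : ∀ ε : ℂ, ε * ε = 1 → IsCharacter H fun h : H =>
      evalFun χ ((2⁻¹ : ℂ) • (T * T + ε • T) * sg (h : G)) := fun ε hε =>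
    isCharacter_idem hχ (by
      simp only [add_mul, mul_add, mul_smul_comm, smul_mul_assoc, ← mul_assoc, h1]
      match_scalars <;> ring_nf
      linear_combination (1 / 4 : ℂ) * hε)
      (Subalgebra.smul_mem _ (add_mem (mul_mem h2 h2) (Subalgebra.smul_mem _ h2 _)) _)
  refine ⟨_, _, h3 1 (by simp), h3 (-1) (by simp), funext fun h => ?_, funext fun h => ?_⟩ <;>
  · simp only [Pi.sub_apply, Pi.add_apply, smul_mul_assoc, add_mul, map_smul, map_add, smul_eq_mul]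
    ring

theorem Hyp.star_gen (hy : Hyp α K L H) {χ : G → ℂ} (hχ : IsCharacter G χ) :
    IsGeneralizedCharacter H (star α K L H χ) := by
  obtain ⟨φ, φ', h1, h2, h3, -⟩ := hy.exists_star hχ
  exact ⟨φ, φ', h1, h2, h3⟩

theorem Hyp.classInner_star (hy : Hyp α K L H) (χ χ' : IrrCharacter G) :
    classInner (star α K L H χ) (star α K L H χ') = if χ = χ' then (∑ θ ∈ invs α L,
      (Nat.card K / Nat.card (Dg K θ) : ℂ) * evalFun (χ : G → ℂ) (tt α K θ * tt α K θ)) / (χ : G → ℂ) 1 else 0 := by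
  have hχ := χ.2.isClassFunction
  have hχ' := χ'.2.isClassFunction
  have h1 : ∀ θ ∈ invs α L, ∀ η ∈ invs α L, η ≠ θ → ∑ x : H, evalFun (χ : G → ℂ) (tt α K θ * sg (x : G)) *
      evalFun (χ' : G → ℂ) (tt α K η * sg (x : G)⁻¹) = 0 := fun θ hθ η hη e => by
    have h2 := casimir H ((evalFun (χ : G → ℂ)).comp (LinearMap.mulLeft ℂ (tt α K θ)))
      ((evalFun (χ' : G → ℂ)).comp (LinearMap.mulLeft ℂ (tt α K η)))
      fun g hg => idm_supp θ g fun e => hg (hy.LH e)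
    simp only [LinearMap.comp_apply, LinearMap.mulLeft_apply, ← mul_assoc, hy.tt_mul_idm hθ] at h2
    rw [h2]
    refine Finset.sum_eq_zero fun x _ => ?_
    rw [evalFun_mul_comm hχ' _ (idm L θ), ← hy.idm_mul_tt hη, ← mul_assoc, ← mul_assoc, idm_mul_of_ne e.symm,
      zero_mul, zero_mul, map_zero, mul_zero]
  rw [classInner_def, Finset.sum_congr rfl fun x _ => by rw [(hy.star_gen χ'.2.isCharacter).conj_apply]]
  simp only [star, TT, Finset.sum_mul, map_sum, Finset.mul_sum, Subgroup.coe_inv]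
  rw [Finset.sum_comm, Finset.sum_congr rfl fun η hη => Finset.sum_comm]
  simp only [← Finset.mul_sum]
  rw [Finset.sum_congr rfl fun η hη => Finset.sum_eq_single_of_mem η hη fun θ hθ e => h1 θ hθ η hη e.symm,
    Finset.mul_sum, Finset.sum_div]
  have hG : (Nat.card G : ℂ) ≠ 0 := natCard_ne_zero
  have hH : (Nat.card H : ℂ) ≠ 0 := natCard_ne_zero
  split_ifs with e
  · refine Finset.sum_congr rfl fun θ hθ => ?_
    have h3 := hy.sum_tt (mem_invs.mp hθ) hχ hχ'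
    have hD : (Nat.card (Dg K θ) : ℂ) ≠ 0 := natCard_ne_zero
    have h0 := irr_one_ne_zero χ
    rw [sum_evalFun_mul, if_pos e] at h3
    field_simp at h3 ⊢
    exact h3
  · refine Finset.sum_eq_zero fun θ hθ => ?_
    have h3 := hy.sum_tt (mem_invs.mp hθ) hχ hχ'
    rw [sum_evalFun_mul, if_neg e, mul_zero] at h3
    rw [(mul_eq_zero.mp h3).resolve_left (mul_ne_zero hG natCard_ne_zero), mul_zero]

end CL.Blk.Isa
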