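/-
The Isaacs correspondence step, part 6: norms, parities and the abstract form of the theorem.
-/
import Cfsg.Agent.Blk.Isa5

set_option autoImplicit false
set_option linter.unusedSectionVars false

namespace CL.Blk.Isa

open MonoidAlgebra Cfsg CL.Char
open scoped MonoidAlgebra ComplexConjugate Classical ComplexOrder

variable {G S : Type*} [Group G] [Fintype G] [Group S] [Finite S]
variable {α : S →* MulAut G} {K L H : Subgroup G} [hL : L.Normal] [hK : K.Normal]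

theorem inv_idm_iff {N : Subgroup G} (hN : ∀ s, ∀ n ∈ N, α s n ∈ N) {θ : IrrCharacter N} :
    Inv α (idm N θ) ↔ ∀ s (n : N), (θ : N → ℂ) ⟨α s n, hN s n n.2⟩ = (θ : N → ℂ) n := by
  have h1 : ∀ s, dc (α s⁻¹) (idm N θ) = idm N (irrEquiv (glRestrict α N hN s) θ) := fun s =>
    dc_idm _ _ (fun n => by simp) θ
  refine ⟨fun h s n => ?_, fun h s => ?_⟩
  · exact congrFun (congrArg Subtype.val (idm_injective ((h1 s).symm.trans (h s⁻¹)))) n
  · rw [← inv_inv s, h1]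
    exact congrArg _ (Subtype.ext (funext (h s⁻¹)))

theorem Hyp.invH (hy : Hyp α K L H) (s : S) (x : G) (hx : x ∈ H) : α s x ∈ H := by
  obtain ⟨l, hl, c, hc, rfl⟩ := hy.HLC x hx
  rw [map_mul, hc]
  exact H.mul_mem (hy.LH (hy.invL s l hl)) (hy.CH c hc)

theorem Hyp.dc_eq (hy : Hyp α K L H) {x : ℂ[G]} {s : S} {c : G} (hc : ∀ s, α s c = c)
    (h : dc (α s) x = sg c * x * sg c⁻¹) : dc (α s) x = x :=
  dc_of_coprime (hc s) (by rw [← map_pow, pow_card_eq_one', map_one]) pow_card_eq_one' hy.cop.symm h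

theorem Hyp.exists_fixed_conj (hy : Hyp α K L H) {θ η : IrrCharacter L} {x : G} (hx : x ∈ H)
    (e : sg x * idm L θ * sg x⁻¹ = idm L η) : ∃ c, (∀ s, α s c = c) ∧ sg c * idm L θ * sg c⁻¹ = idm L η := by
  obtain ⟨l, hl, c, hc, rfl⟩ := hy.HLC x hx
  obtain ⟨ξ, hξ⟩ := exists_conj_idm c θ
  have : sg (l * c) * idm L θ * sg (l * c)⁻¹ = sg l * (sg c * idm L θ * sg c⁻¹) * sg l⁻¹ := by
    simp only [mul_inv_rev, ← sg_mul, mul_assoc]
  rw [this, hξ, conj_eq_iff.mpr (mem_fixedAlg'.mp (idm_mem ξ) l hl)] at e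
  exact ⟨c, hc, hξ.trans e⟩

theorem Hyp.inv_of_mul_ne_zero (hy : Hyp α K L H) {ψ : IrrCharacter H} (hψ : Inv α (idm H ψ)) {η : IrrCharacter L}
    (h : idm L η * idm H ψ ≠ 0) : Inv α (idm L η) := fun s => by
  obtain ⟨ξ, hξ⟩ := exists_dc_idm (hy.invL s) (fun g hg => map_inv α s ▸ hy.invL s⁻¹ g hg) η
  obtain ⟨x, hx, e⟩ := exists_conj_of_mul_ne_zero hy.LH h (η := ξ) (by
    rwa [← hξ, ← hψ s, ← map_mul, map_ne_zero_iff _ (dc _).injective])
  obtain ⟨c, hc, e⟩ := hy.exists_fixed_conj hx e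
  exact hy.dc_eq hc (hξ.trans e.symm)

theorem Hyp.sum_idm_mul (hy : Hyp α K L H) {ψ : IrrCharacter H} (hψ : Inv α (idm H ψ)) :
    ∑ θ ∈ invs α L, idm L θ * idm H ψ = idm H ψ := by
  conv_rhs => rw [← one_mul (idm H ψ), ← sum_idm (N := L), Finset.sum_mul]
  exact Finset.sum_subset (Finset.subset_univ _) fun η _ h =>
    by_contra fun e => h (mem_invs.mpr (hy.inv_of_mul_ne_zero hψ e))

theorem Hyp.inv_of_over (hy : Hyp α K L H) {χ : IrrCharacter G} (hχ : ∀ s g, (χ : G → ℂ) (α s g) = (χ : G → ℂ) g)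
    {η : IrrCharacter K} (h : Over K (χ : G → ℂ) (η : K → ℂ)) : Inv α (idm K η) := fun s => by
  obtain ⟨ξ, hξ⟩ := exists_dc_idm (hy.invK s) (fun g hg => map_inv α s ▸ hy.invK s⁻¹ g hg) η
  have h1 : Over K (χ : G → ℂ) (ξ : K → ℂ) := by
    change evalFun _ (idm K ξ) ≠ 0
    rwa [← hξ, evalFun_dc, funext (hχ s)]
  obtain ⟨g, rfl⟩ := h.exists_conjIrr h1
  obtain ⟨k, hk, c, hc, rfl⟩ := hy.GKC g
  refine hy.dc_eq (c := c⁻¹) (fun s => by rw [map_inv, hc]) ?_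
  rw [hξ, ← conjIrr_conjIrr, conjIrr_of_mem hk, idm, incl_charIdem_conjIrr, inv_inv, idm]

theorem idm_mul_av {θ : IrrCharacter L} {y : ℂ[G]} (h1 : idm L θ * y = y)
    (h2 : ∀ k ∈ Dg K θ, sg k * y = y * sg k) : idm L θ * av K y = (Nat.card (Dg K θ) : ℂ) • y := by
  rw [av, Finset.mul_sum, sum_of_le (Dg_le θ) (fun k => idm L θ * (sg k * y * sg k⁻¹)),
    Finset.sum_congr rfl fun (k : Dg K θ) _ => by rw [conj_eq_iff.mpr (h2 k k.2), h1]]
  · simp [Nat.cast_smul_eq_nsmul]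
  · intro k hk hD
    have h3 : sg k * y * sg k⁻¹ = sg k * idm L θ * sg k⁻¹ * (sg k * y * sg k⁻¹) := by
      simp only [mul_assoc, sg_inv_mul_sg_mul]
      rw [← mul_assoc (idm L θ), h1]
    rw [h3, ← mul_assoc, idm_mul_conj fun e => hD ⟨hk, conj_eq_iff.mp e⟩, zero_mul]

theorem Hyp.rad_mul_idm (hy : Hyp α K L H) {θ : IrrCharacter L} (hθ : Inv α (idm L θ)) {u : G → ℂ[G]}
    {a : G → G → ℂˣ} (h : Fam α (Dg K θ) θ u a) {η : IrrCharacter K} (hη : Inv α (idm K η)) {r : G}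
    (hr : r ∈ h.rad) : u r * idm K η = idm L θ * idm K η := by
  have h1 : ∀ r, ∃ c : ℂ, r ∈ h.rad → u r * idm K η = c • (idm L θ * idm K η) := fun r => by
    by_cases hr : r ∈ h.rad
    swap
    · exact ⟨0, fun e => (hr e).elim⟩
    have h2 : Sup K ((1 : G) : G ⧸ K) (u r) := sup_one_iff.mpr fun g hg => h.sup r hr.1 g fun e =>
      hg ((K.mul_mem_cancel_left (K.inv_mem hr.1.1)).mp (hy.LK (QuotientGroup.eq.mp e.symm)))
    have h3 := congrArg (idm L θ * ·) (fixed_mul_idm (av_mem (u r))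
      (sup_one_iff.mp (h2.av (N := K) (by simp))) η)
    simp only [← mul_assoc, mul_smul_comm,
      idm_mul_av (h.left r hr.1) fun k hk => h.sg_mul_rad hy (Dg_le θ) hk hk.2 hr, smul_mul_assoc] at h3
    exact ⟨_, fun _ => by rw [← smul_smul, ← h3, inv_smul_smul₀ natCard_ne_zero]⟩
  choose μ hμ using h1
  by_cases h0 : idm L θ * idm K η = 0
  · rw [hμ r hr, h0, smul_zero]
  have h2 : ∀ r ∈ h.rad, ∀ c : ℂ, u r * idm K η = c • (idm L θ * idm K η) → μ r = c := fun r hr c e =>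
    smul_left_injective ℂ h0 ((hμ r hr).symm.trans e)
  rw [hμ r hr, hy.hom_triv (h.le_rad (hy.le_Dg θ)) (h.rad_le.trans (Dg_le θ)) (h.rad_inv (hy.Dg_inv hθ))
    (fun l hl => h2 l (h.le_rad (hy.le_Dg θ) hl) 1 (by rw [h.of_mem hl, one_smul]))
    (fun k hk r hr => h2 _ (mul_mem hk hr) _ ?_) (fun s k hk => h2 _ (h.rad_inv (hy.Dg_inv hθ) s k hk) _ ?_) hr,
    one_smul]
  · rw [← h.mul_rad hk.1 hr, mul_assoc, hμ r hr, mul_smul_comm, ← mul_assoc, h.right hk.1, hμ k hk, smul_smul,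
      mul_comm]
  · rw [← h.equi s k hk.1, ← hη s, ← map_mul, hμ k hk, map_smul, map_mul, hθ s]

theorem Hyp.evalFun_mul_tt (hy : Hyp α K L H) {χ : IrrCharacter G}
    (hχ : ∀ s g, (χ : G → ℂ) (α s g) = (χ : G → ℂ) g) {θ : IrrCharacter L} (hθ : θ ∈ invs α L) (x : ℂ[G]) :
    evalFun (χ : G → ℂ) (x * (idm L θ - tt α K θ * tt α K θ)) = 0 := by
  obtain ⟨a, h⟩ := hy.fam (mem_invs.mp hθ)
  rw [← mul_one (x * _), ← sum_idm (N := K), Finset.mul_sum, map_sum]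
  refine Finset.sum_eq_zero fun η _ => ?_
  by_cases e : Over K (χ : G → ℂ) (η : K → ℂ)
  · rw [mul_assoc, sub_mul, tt, h.nrm_mul_nrm hy (hy.le_Dg θ) (Dg_le θ), smul_mul_assoc, Finset.sum_mul,
      Finset.sum_congr rfl fun (r : h.rad) _ => hy.rad_mul_idm (mem_invs.mp hθ) h (hy.inv_of_over hχ e) r.2,
      Finset.sum_const, ← Nat.cast_smul_eq_nsmul ℂ, Finset.card_univ, ← Nat.card_eq_fintype_card,
      inv_smul_smul₀ natCard_ne_zero, sub_self, mul_zero, map_zero]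
  · rw [evalFun_mul_comm χ.2.isClassFunction]
    exact evalFun_incl_charIdem_mul_eq_zero χ.2.isCharacter e _

theorem Hyp.sum_av (hy : Hyp α K L H) : ∑ θ ∈ invs α L, (Nat.card (Dg K θ) : ℂ)⁻¹ • av K (idm L θ) =
    ∑ η : IrrCharacter L with ∃ θ ∈ invs α L, ∃ k ∈ K, sg k * idm L θ * sg k⁻¹ = idm L η, idm L η := by
  set F := ∑ θ ∈ invs α L, (Nat.card (Dg K θ) : ℂ)⁻¹ • av K (idm L θ) with hF
  have h1 : F ∈ fixedAlg ℂ K := Subalgebra.sum_mem _ fun θ _ => Subalgebra.smul_mem _ (av_mem _) _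
  have h2 : ∀ θ ∈ invs α L, idm L θ * F = idm L θ := fun θ hθ => by
    rw [hF, Finset.mul_sum, Finset.sum_eq_single_of_mem θ hθ fun η hη e => ?_, mul_smul_comm,
      idm_mul_av (idm_mul_self θ) fun k hk => hk.2, inv_smul_smul₀ natCard_ne_zero]
    rw [mul_smul_comm, av, Finset.mul_sum, Finset.sum_eq_zero fun k _ => idm_mul_conj fun e' => e ?_, smul_zero]
    have h3 := hy.mem_Dg (mem_invs.mp hη) k.2 (e' ▸ mem_invs.mp hθ)
    exact idm_injective ((conj_eq_iff.mpr h3.2).symm.trans e')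
  rw [← one_mul F, ← sum_idm (N := L), Finset.sum_mul, Finset.sum_filter]
  refine Finset.sum_congr rfl fun η _ => ?_
  split_ifs with e
  · obtain ⟨θ, hθ, k, hk, e⟩ := e
    rw [← e, mul_assoc, mem_fixedAlg'.mp h1 _ (K.inv_mem hk), mul_assoc (sg k), ← mul_assoc (idm L θ), h2 θ hθ,
      mul_assoc]
  · rw [hF, Finset.mul_sum]
    refine Finset.sum_eq_zero fun θ hθ => ?_
    rw [mul_smul_comm, av, Finset.mul_sum,
      Finset.sum_eq_zero fun (k : K) _ => idm_mul_conj fun e' => e ⟨θ, hθ, k, k.2, e'⟩, smul_zero]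

theorem Hyp.degree_eq (hy : Hyp α K L H) (χ : IrrCharacter G) : (χ : G → ℂ) 1 =
    classInner (star α K L H χ) (star α K L H χ) * (χ : G → ℂ) 1 +
    (∑ θ ∈ invs α L, (Nat.card K / Nat.card (Dg K θ) : ℂ) * evalFun (χ : G → ℂ) (idm L θ - tt α K θ * tt α K θ) +
    ∑ η : IrrCharacter L with ¬ ∃ θ ∈ invs α L, ∃ k ∈ K, sg k * idm L θ * sg k⁻¹ = idm L η,
      evalFun (χ : G → ℂ) (idm L η)) := by
  rw [hy.classInner_star, if_pos rfl, div_mul_cancel₀ _ (irr_one_ne_zero χ), ← add_assoc, ← Finset.sum_add_distrib,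
    ← evalFun_one (χ : G → ℂ), ← sum_idm (N := L), ← Finset.sum_filter_add_sum_filter_not _ fun η : IrrCharacter L =>
      ∃ θ ∈ invs α L, ∃ k ∈ K, sg k * idm L θ * sg k⁻¹ = idm L η, ← hy.sum_av, map_add, map_sum, map_sum]
  congr 1
  refine Finset.sum_congr rfl fun θ _ => ?_
  rw [← mul_add, ← map_add, add_sub_cancel, map_smul, av, map_sum,
    Finset.sum_congr rfl fun (k : K) _ => evalFun_conj χ.2.isClassFunction (k : G) _]
  simp only [Finset.sum_const, Finset.card_univ, nsmul_eq_mul, smul_eq_mul, Nat.card_eq_fintype_card]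
  ring

theorem Hyp.norm_eq_one (hy : Hyp α K L H) {χ : IrrCharacter G}
    (hχ : ∀ s g, (χ : G → ℂ) (α s g) = (χ : G → ℂ) g) : classInner (star α K L H χ) (star α K L H χ) = 1 := by
  have h1 := hy.degree_eq χ
  have := hy.solv
  obtain ⟨θ, h2, h3, h4⟩ := gl_exists_inv_under α L hy.invL ⊥ (fun b hb => ⟨1, L.one_mem, by
    simp [Subgroup.mem_bot.mp hb]⟩) (by
      rw [Subgroup.index_bot]
      exact hy.cop.symm.coprime_dvd_right L.index_dvd_card) (Or.inr inferInstance) χ.2 hχ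
  rw [Finset.sum_eq_zero fun θ hθ => by rw [← one_mul (_ - _), hy.evalFun_mul_tt hχ hθ, mul_zero],
    Finset.sum_eq_zero fun η hη => ?_, add_zero, add_zero] at h1
  · exact mul_right_cancel₀ (irr_one_ne_zero χ) (h1.symm.trans (one_mul _).symm)
  refine by_contra fun e => (Finset.mem_filter.mp hη).2 ?_
  obtain ⟨g, rfl⟩ := ((over_iff (θ := ⟨θ, h2⟩)).mpr h4).exists_conjIrr e
  obtain ⟨k, hk, c, hc, e⟩ := hy.GKC g⁻¹
  obtain ⟨ξ, hξ⟩ := exists_conj_idm c (⟨θ, h2⟩ : IrrCharacter L)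
  refine ⟨ξ, mem_invs.mpr (hξ ▸ ((inv_idm_iff hy.invL).mpr h3).conj hc), k, hk, ?_⟩
  rw [← hξ, idm, idm, incl_charIdem_conjIrr, ← inv_inv g, inv_inv g⁻¹, e]
  simp only [mul_inv_rev, ← sg_mul, mul_assoc]

theorem Hyp.star_cases (hy : Hyp α K L H) (χ : IrrCharacter G) : star α K L H χ = 0 ∨
    ∃ (ε : ℂ) (ψ : IrrCharacter H), (ε = 1 ∨ ε = -1) ∧ star α K L H χ = ε • (ψ : H → ℂ) := by
  have h1 := hy.star_gen χ.2.isCharacter
  obtain ⟨n, hn⟩ := h1.exists_int_classInner h1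
  have h2 : ∀ j : ℂ[G], j * j = j → 0 ≤ evalFun (χ : G → ℂ) j := fun j hj => by
    obtain ⟨m, hm⟩ := exists_nat_evalFun_idem χ.2.isCharacter hj
    exact hm ▸ Nat.cast_nonneg m
  have h3 : (n : ℂ) * (χ : G → ℂ) 1 ≤ 1 * (χ : G → ℂ) 1 := by
    rw [one_mul]
    conv_rhs => rw [hy.degree_eq χ, hn]
    refine le_add_of_nonneg_right (add_nonneg (Finset.sum_nonneg fun θ hθ => mul_nonneg
      (div_nonneg (Nat.cast_nonneg _) (Nat.cast_nonneg _)) (h2 _ ?_)) (Finset.sum_nonneg fun η _ =>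
        h2 _ (idm_mul_self η)))
    simp only [sub_mul, mul_sub, idm_mul_self, mul_assoc, hy.tt_mul_idm hθ, hy.tt_cube hθ]
    rw [← mul_assoc, hy.idm_mul_tt hθ, sub_self, sub_zero]
  rw [← irr_natCast_charDegree] at h3
  have h4 : n ≤ 1 := le_of_mul_le_mul_right (by exact_mod_cast h3)
    (Nat.cast_pos.mpr (irr_charDegree_pos χ) : (0 : ℤ) < _)
  have h5 := classInner_self_re_nonneg (star α K L H χ)
  rw [hn, Complex.intCast_re, Int.cast_nonneg_iff] at h5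
  obtain rfl | rfl : n = 0 ∨ n = 1 := by omega
  · exact Or.inl (classInner_self_eq_zero.mp (by simpa using hn))
  · obtain ⟨ε, ψ, h6, h7, h8⟩ := h1.exists_sign_irr (by simpa using hn)
    exact Or.inr ⟨ε, ⟨ψ, h7⟩, h6, h8⟩

theorem Hyp.star_eq (hy : Hyp α K L H) {χ : IrrCharacter G} {ψ : IrrCharacter H}
    (h : classInner (star α K L H χ) ψ ≠ 0) : ∃ ε : ℂ, (ε = 1 ∨ ε = -1) ∧ star α K L H χ = ε • (ψ : H → ℂ) := by
  obtain h1 | ⟨ε, ξ, h1, h2⟩ := hy.star_cases χ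
  · exact (h (by rw [h1, classInner_zero_left])).elim
  · rw [h2, classInner_smul_left, classInner_irr] at h
    obtain rfl : ξ = ψ := by_contra fun e => h (by rw [if_neg e, mul_zero])
    exact ⟨ε, h1, h2⟩

theorem Hyp.eq_of_star (hy : Hyp α K L H) {χ χ' : IrrCharacter G} {ψ : IrrCharacter H}
    (h : classInner (star α K L H χ) ψ ≠ 0) (h' : classInner (star α K L H χ') ψ ≠ 0) : χ = χ' := by
  obtain ⟨ε, -, h2⟩ := hy.star_eq h
  obtain ⟨ε', h3, h4⟩ := hy.star_eq h'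
  by_contra e
  have h5 := hy.classInner_star χ χ'
  rw [if_neg e, h4, classInner_smul_right] at h5
  rcases h3 with rfl | rfl <;> simp [h] at h5

theorem Hyp.odd_iff (hy : Hyp α K L H) {χ : IrrCharacter G} (hχ : ∀ s g, (χ : G → ℂ) (α s g) = (χ : G → ℂ) g)
    {ψ : IrrCharacter H} (hψ : Inv α (idm H ψ)) :
    (∃ m : ℕ, classInner (fun h : H => (χ : G → ℂ) h) ψ = m ∧ Odd m) ↔ classInner (star α K L H χ) ψ ≠ 0 := by
  obtain ⟨φ, φ', h1, h2, h3, h4⟩ := hy.exists_star χ.2.isCharacter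
  obtain ⟨m, hm⟩ := h1.exists_nat_classInner ψ.2.isCharacter
  obtain ⟨m', hm'⟩ := h2.exists_nat_classInner ψ.2.isCharacter
  have h5 : classInner (fun h : H => (χ : G → ℂ) h) ψ = (m + m' : ℕ) := by
    rw [Nat.cast_add, ← hm, ← hm', ← classInner_add_left, ← h4]
    have h6 := classInner_eq_evalFun_idm (evalFun (χ : G → ℂ)) ψ
    have h7 := classInner_eq_evalFun_idm
      ((evalFun (χ : G → ℂ)).comp (LinearMap.mulLeft ℂ (TT α K L * TT α K L))) ψ
    simp only [LinearMap.comp_apply, LinearMap.mulLeft_apply, evalFun_single, one_mul] at h6 h7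
    rw [h6, h7, hy.TT_mul_TT, Finset.sum_mul, map_sum]
    refine congrArg (· / (ψ : H → ℂ) 1) ?_
    conv_lhs => rw [← hy.sum_idm_mul hψ, map_sum]
    refine Finset.sum_congr rfl fun θ hθ => ?_
    rw [← sub_eq_zero, ← map_sub, ← sub_mul, evalFun_mul_comm χ.2.isClassFunction, hy.evalFun_mul_tt hχ hθ]
  have h6 : classInner (star α K L H χ) ψ = m - m' := by rw [h3, classInner_sub_left, hm, hm']
  rw [h5]
  refine ⟨fun ⟨n, h7, h8⟩ e => ?_, fun h => ⟨_, rfl, ?_⟩⟩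
  · rw [h6, sub_eq_zero, Nat.cast_inj] at e
    rw [← Nat.cast_inj.mp h7, e, Nat.odd_iff] at h8
    omega
  · obtain ⟨ε, h7, h8⟩ := hy.star_eq h
    rw [h8, classInner_smul_left, ψ.2.classInner_self, mul_one, eq_sub_iff_add_eq] at h6
    rw [Nat.odd_iff]
    rcases h7 with rfl | rfl
    · have : 1 + m' = m := by exact_mod_cast h6
      omega
    · have : m' = 1 + m := by exact_mod_cast neg_add_eq_iff_eq_add.mp h6
      omega

theorem Hyp.exists_star_ne_zero (hy : Hyp α K L H) {ψ : IrrCharacter H} (hψ : Inv α (idm H ψ)) :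
    ∃ χ : IrrCharacter G, classInner (star α K L H χ) ψ ≠ 0 := by
  by_contra! h
  have h1 : (TT α K L * idm H ψ).coeff 1 = 0 := by
    rw [coeff_eq_sum_irr, Finset.sum_eq_zero fun χ _ => ?_, mul_zero]
    have h2 := classInner_eq_evalFun_idm ((evalFun (χ : G → ℂ)).comp (LinearMap.mulLeft ℂ (TT α K L))) ψ
    have h3 := (div_eq_zero_iff.mp (h2.symm.trans (h χ))).resolve_right (irr_one_ne_zero ψ)
    rw [inv_one, ← one_def, mul_one]
    exact mul_eq_zero_of_right _ h3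
  obtain ⟨θ₀, h2, h3⟩ := Finset.exists_ne_zero_of_sum_ne_zero ((hy.sum_idm_mul hψ).trans_ne (idm_ne_zero ψ))
  have h4 : ∀ θ ∈ invs α L, (tt α K θ * idm H ψ).coeff 1 =
      ((√(nn (∑ k : Dg K θ₀, uu α K θ₀ k)) : ℝ) : ℂ)⁻¹ * Nat.card L * (idm L θ * idm H ψ).coeff 1 := fun θ hθ => by
    obtain ⟨a, h⟩ := hy.fam (mem_invs.mp hθ)
    rw [tt, nrm, smul_mul_assoc, coeff_smul_mul, h.coeff_tau_mul hy (hy.le_Dg θ) (Dg_le θ) (idm_supp ψ), mul_assoc]
    by_cases e : idm L θ * idm H ψ = 0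
    · simp [e]
    obtain ⟨x, hx, e⟩ := exists_conj_of_mul_ne_zero hy.LH h3 e
    obtain ⟨c, hc, e⟩ := hy.exists_fixed_conj hx e
    rw [← hy.sum_conj (mem_invs.mp h2) hc e, nn_dc]
  obtain ⟨a, h5⟩ := hy.fam (mem_invs.mp h2)
  rw [TT, Finset.sum_mul, coeff_sum_apply, Finset.sum_congr rfl h4, ← Finset.mul_sum, ← coeff_sum_apply,
    hy.sum_idm_mul hψ, h5.nn_tau hy (hy.le_Dg θ₀) (Dg_le θ₀), idm, coeff_incl_of_mem _ _ H.one_mem,
    coeff_charIdem] at h1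
  change _ * (_ * (_ * conj ((ψ : H → ℂ) 1))) = 0 at h1
  simp [irr_one_ne_zero ψ] at h1

theorem Hyp.star_comp (hy : Hyp α K L H) (χ : G → ℂ) (s : S) (x : H) :
    star α K L H (fun g => χ (α s g)) x = star α K L H χ ⟨α s x, hy.invH s x x.2⟩ := by
  rw [star, star, ← evalFun_dc, map_mul, hy.TT_inv s, dc_sg]

theorem Hyp.main (hy : Hyp α K L H) :
    (∀ χ : IrrCharacter G, (∀ s g, (χ : G → ℂ) (α s g) = (χ : G → ℂ) g) → ∃! ψ : IrrCharacter H,
      Inv α (idm H ψ) ∧ ∃ m : ℕ, classInner (fun h : H => (χ : G → ℂ) h) ψ = m ∧ Odd m) ∧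
    (∀ χ χ' : IrrCharacter G, (∀ s g, (χ : G → ℂ) (α s g) = (χ : G → ℂ) g) →
      (∀ s g, (χ' : G → ℂ) (α s g) = (χ' : G → ℂ) g) → ∀ ψ : IrrCharacter H, Inv α (idm H ψ) →
      (∃ m : ℕ, classInner (fun h : H => (χ : G → ℂ) h) ψ = m ∧ Odd m) →
      (∃ m : ℕ, classInner (fun h : H => (χ' : G → ℂ) h) ψ = m ∧ Odd m) → χ = χ') ∧
    ∀ ψ : IrrCharacter H, Inv α (idm H ψ) → ∃ χ : IrrCharacter G, (∀ s g, (χ : G → ℂ) (α s g) = (χ : G → ℂ) g) ∧
      ∃ m : ℕ, classInner (fun h : H => (χ : G → ℂ) h) ψ = m ∧ Odd m := by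
  refine ⟨fun χ hχ => ?_, fun χ χ' hχ hχ' ψ hψ h h' =>
    hy.eq_of_star ((hy.odd_iff hχ hψ).mp h) ((hy.odd_iff hχ' hψ).mp h'), fun ψ hψ => ?_⟩
  · obtain h1 | ⟨ε, ψ, h1, h2⟩ := hy.star_cases χ
    · have := hy.norm_eq_one hχ
      rw [h1, classInner_zero_left] at this
      exact (zero_ne_one this).elim
    have h3 : ε ≠ 0 := by rcases h1 with rfl | rfl <;> simp
    have h4 : Inv α (idm H ψ) := (inv_idm_iff hy.invH).mpr fun s x => by
      have h5 := hy.star_comp χ s x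
      rw [funext (hχ s), h2] at h5
      exact (mul_left_cancel₀ h3 h5).symm
    refine ⟨ψ, ⟨h4, (hy.odd_iff hχ h4).mpr ?_⟩, fun ξ ⟨h5, h6⟩ => ?_⟩
    · rwa [h2, classInner_smul_left, ψ.2.classInner_self, mul_one]
    · have h7 := (hy.odd_iff hχ h5).mp h6
      rw [h2, classInner_smul_left, classInner_irr] at h7
      exact by_contra fun e => h7 (by rw [if_neg (Ne.symm e), mul_zero])
  · obtain ⟨χ, h1⟩ := hy.exists_star_ne_zero hψ
    obtain ⟨ε, -, h2⟩ := hy.star_eq h1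
    have h3 : ∀ s g, (χ : G → ℂ) (α s g) = (χ : G → ℂ) g := fun s => by
      have h4 : star α K L H (irrEquiv (α s) χ) = star α K L H χ := funext fun x => by
        rw [coe_irrEquiv, hy.star_comp, h2, Pi.smul_apply, Pi.smul_apply, (inv_idm_iff hy.invH).mp hψ]
      exact congrFun (congrArg Subtype.val (hy.eq_of_star (h4 ▸ h1) h1))
    exact ⟨χ, h3, (hy.odd_iff h3 hψ).mpr h1⟩

end CL.Blk.Isa
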