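/-
The Isaacs correspondence step, part 7: removing the fixed points of the abelian section.
-/
import Cfsg.Agent.Blk.Isa6
import Cfsg.Agent.Grp.CoprimeAct

set_option autoImplicit false
set_option linter.unusedSectionVars false

namespace CL.Blk.Isa

open Cfsg CL.Char

variable {G S : Type*} [Group G] [Finite G] [Group S] [Finite S]

theorem exists_hyp {α : S →* MulAut G} {K L H : Subgroup G} [hL : L.Normal] [hK : K.Normal] (LK : L ≤ K)
    (LH : L ≤ H) (invK : ∀ s, ∀ k ∈ K, α s k ∈ K) (invL : ∀ s, ∀ l ∈ L, α s l ∈ L)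
    (ab : ∀ a ∈ K, ∀ b ∈ K, ((a * b : G) : G ⧸ L) = (b * a : G))
    (HLC : ∀ h ∈ H, ∃ l ∈ L, ∃ c, (∀ s, α s c = c) ∧ h = l * c) (CH : ∀ c, (∀ s, α s c = c) → c ∈ H)
    (GKC : ∀ g, ∃ k ∈ K, ∃ c, (∀ s, α s c = c) ∧ g = k * c) (odd : Odd (Nat.card G))
    (cop : (Nat.card G).Coprime (Nat.card S)) (solv : Group.IsSolvable G) :
    ∃ K' : Subgroup G, K'.Normal ∧ Hyp α K' L H := by
  have := Fintype.ofFinite S
  let Q := K.map (QuotientGroup.mk' L)
  have hQ : Q.Normal := hK.map _ (QuotientGroup.mk'_surjective L)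
  let _ : CommGroup Q :=
    { (inferInstance : Group Q) with
      mul_comm := by
        rintro ⟨_, a, ha, rfl⟩ ⟨_, b, hb, rfl⟩
        exact Subtype.ext (ab a ha b hb) }
  let β : S →* MulAut Q := glRestrict (glQuotHom α L invL) _ (by
    rintro s _ ⟨k, hk, rfl⟩
    exact ⟨α s k, invK s k hk, rfl⟩)
  let N : Q →* Q := MonoidHom.mk' (fun q => ∏ s, β s q) fun q q' => by simp only [map_mul, Finset.prod_mul_distrib]
  have hN : ∀ q, N q = ∏ s, β s q := fun _ => rfl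
  have h1 : ∀ t q, β t (N q) = N q := fun t q => by
    rw [hN, map_prod]
    exact Fintype.prod_equiv (Equiv.mulLeft t) _ _ fun s => by simp
  have h2 : ∀ t q, N (β t q) = N q := fun t q => Fintype.prod_equiv (Equiv.mulRight t) _ _ fun s => by simp
  have h3 : ∀ q, (∀ t, β t q = q) → N q = q ^ Nat.card S := fun q hq => by simp [hN, hq]
  have h4 : ∀ q : Q, q ^ Nat.card G = 1 := fun q => orderOf_dvd_iff_pow_eq_one.mp
    ((orderOf_dvd_natCard q).trans ((Subgroup.card_map_dvd _ _).trans (Subgroup.card_subgroup_dvd_card K)))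
  let π : K →* Q := (QuotientGroup.mk' L).subgroupMap K
  let K' : Subgroup G := (N.comp π).ker.map K.subtype
  have hK' : ∀ k (hk : k ∈ K), k ∈ K' ↔ N (π ⟨k, hk⟩) = 1 := fun k hk =>
    ⟨fun ⟨_, h, e⟩ => by subst e; exact h, fun h => ⟨⟨k, hk⟩, h, rfl⟩⟩
  have hle : K' ≤ K := Subgroup.map_subtype_le _
  obtain ⟨j, h5, h6⟩ := Nat.chineseRemainder cop 1 0
  obtain ⟨j, rfl⟩ := Nat.modEq_zero_iff_dvd.mp h6
  refine ⟨K', ⟨fun k hk g => ?_⟩, fun l hl => (hK' l (LK hl)).mpr ?_, LH, fun s k hk => ?_, invL,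
    fun a ha b hb => QuotientGroup.eq.mp (ab a (hle ha) b (hle hb)), HLC, CH, fun g => ?_, fun k hk h => ?_,
    odd, cop, solv⟩
  · obtain ⟨k₀, hk₀, c, hc, rfl⟩ := GKC g
    have h7 := hK.conj_mem k (hle hk) c
    have h8 : π ⟨_, hK.conj_mem k (hle hk) (k₀ * c)⟩ = MulAut.conjNormal (c : G ⧸ L) (π ⟨k, hle hk⟩) :=
      Subtype.ext (by
        change ((k₀ * c * k * (k₀ * c)⁻¹ : G) : G ⧸ L) = ((c * k * c⁻¹ : G) : G ⧸ L)
        rw [show k₀ * c * k * (k₀ * c)⁻¹ = k₀ * (c * k * c⁻¹) * k₀⁻¹ by group, QuotientGroup.mk_mul, ab _ hk₀ _ h7,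
          ← QuotientGroup.mk_mul, mul_inv_cancel_right])
    have h9 : ∀ s, β s (MulAut.conjNormal (c : G ⧸ L) (π ⟨k, hle hk⟩)) =
        MulAut.conjNormal (c : G ⧸ L) (β s (π ⟨k, hle hk⟩)) := fun s => Subtype.ext (by
      change ((α s (c * k * c⁻¹) : G) : G ⧸ L) = ((c * α s k * c⁻¹ : G) : G ⧸ L)
      rw [map_mul, map_mul, map_inv, hc])
    rw [hK' _ (hK.conj_mem k (hle hk) _), h8, hN, Finset.prod_congr rfl fun s _ => h9 s, ← map_prod, ← hN,
      (hK' k (hle hk)).mp hk, map_one]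
  · rw [show π ⟨l, LK hl⟩ = 1 from Subtype.ext ((QuotientGroup.eq_one_iff l).mpr hl), map_one]
  · rw [hK' _ (invK s k (hle hk)), ← (hK' k (hle hk)).mp hk, ← h2 s (π ⟨k, hle hk⟩)]
    rfl
  · obtain ⟨k, hk, c, hc, rfl⟩ := GKC g
    obtain ⟨k₁, hk₁, e⟩ := (N (π ⟨k, hk⟩) ^ j).2
    have e' : π ⟨k₁, hk₁⟩ = N (π ⟨k, hk⟩) ^ j := Subtype.ext e
    let _ := MulDistribMulAction.compHom G α
    obtain ⟨c₁, h7, h8⟩ := CL.Grp.act_exists_fixed_mem_leftCoset (A := S) (N := L) (k := k₁) invL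
      (cop.symm.coprime_dvd_right (Subgroup.card_subgroup_dvd_card L)) (Or.inr inferInstance) fun s => by
        have h7 : β s (π ⟨k₁, hk₁⟩) = π ⟨k₁, hk₁⟩ := by rw [e', map_pow, h1]
        exact QuotientGroup.eq.mp (congrArg Subtype.val h7).symm
    have h9 : c₁ ∈ K := (K.mul_mem_cancel_left (K.inv_mem hk₁)).mp (LK h8)
    refine ⟨k * c₁⁻¹, (hK' _ (K.mul_mem hk (K.inv_mem h9))).mpr ?_, c₁ * c, fun s => ?_, by group⟩
    · have h10 : π ⟨c₁, h9⟩ = π ⟨k₁, hk₁⟩ := Subtype.ext (QuotientGroup.eq.mpr h8).symm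
      change N (π (⟨k, hk⟩ * ⟨c₁, h9⟩⁻¹)) = 1
      rw [map_mul, map_inv, h10, e', map_mul, map_inv, map_pow, h3 _ fun t => h1 t _, ← pow_mul,
        pow_eq_pow_of_modEq h5 (h4 _), pow_one, mul_inv_cancel]
    · rw [map_mul, hc]
      exact congrArg (· * c) (h7 s)
  · have h7 := (hK' k (hle hk)).mp hk
    rw [h3 (π ⟨k, hle hk⟩) fun s => Subtype.ext (QuotientGroup.eq.mpr (h s)).symm] at h7
    have h8 : π ⟨k, hle hk⟩ = 1 := by
      rw [← pow_one (π _), ← pow_eq_pow_of_modEq h5 (h4 _), pow_mul, h7, one_pow]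
    exact (QuotientGroup.eq_one_iff k).mp (congrArg Subtype.val h8)

end CL.Blk.Isa
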