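/-
The Brauer–Feit analogue of Jordan's theorem in characteristic `p` (helper22).
-/
import Cfsg.Agent.Blk.JordanP

set_option autoImplicit false

open Subgroup CL.Even CL.Grp Module
open scoped Pointwise Nat

namespace CL.Blk.Jor

universe u v

section

variable {G K V : Type*} [Group G] [Field K] [AddCommGroup V] [Module K V] [FiniteDimensional K V]
  {ρ : Representation K G V} {p : ℕ}

theorem norm_bound [IsAlgClosed K] [Finite G] [Fact p.Prime] [CharP K p] (hρ : Function.Injective ρ) {F : Subgroup G}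
    (h1 : F ≤ 𝒞(F)) (h2 : (Nat.card F).Coprime p) {n : ℕ} (hn : finrank K V ≤ n) (h0 : 0 < n) :
    𝒞(F).relIndex 𝒩(F) ≤ n ^ n := by
  let W : (F → K) → Submodule K V := fun χ => ⨅ f : F, Module.End.maxGenEigenspace (ρ f) (χ f)
  have hc : ∀ f g : F, Commute (ρ f) (ρ g) := fun f g => by
    rw [commute_iff_eq, ← map_mul, ← map_mul, h1 g.2 f f.2]
  have hss : ∀ f : F, Module.End.IsSemisimple (ρ f) := fun f => by
    refine Module.End.isSemisimple_of_squarefree_aeval_eq_zero
      ((Polynomial.X_pow_sub_one_separable_iff (n := Nat.card F)).2 fun e => ?_).squarefree ?_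
    · exact (Fact.out : p.Prime).one_lt.ne' (h2.symm.eq_one_of_dvd ((CharP.cast_eq_zero_iff K p _).1 e))
    · have : (f : G) ^ Nat.card F = 1 := congrArg Subtype.val (pow_card_eq_one' (x := f))
      rw [map_sub, map_pow, Polynomial.aeval_X, map_one, ← map_pow, this, map_one, sub_self]
  have hW : ∀ χ v, v ∈ W χ ↔ ∀ f : F, ρ f v = χ f • v := fun χ v => by
    simp only [W, Submodule.mem_iInf, (hss _).isFinitelySemisimple.maxGenEigenspace_eq_eigenspace,
      Module.End.mem_eigenspace_iff]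
  have hind : iSupIndep W := Module.End.independent_iInf_maxGenEigenspace_of_forall_mapsTo _ fun i j c =>
    Module.End.mapsTo_maxGenEigenspace_of_comm (hc j i) c
  have htop : ⨆ χ, W χ = ⊤ := Module.End.iSup_iInf_maxGenEigenspace_eq_top_of_iSup_maxGenEigenspace_eq_top_of_commute
    _ (fun i j _ => hc i j) fun i => Module.End.iSup_maxGenEigenspace_eq_top _
  have := hind.fintypeNeBotOfFiniteDimensional
  have h3 := hind.subtype_ne_bot_le_finrank.trans hn
  refine (relIndex_le_of_fiber (K := 𝒞(F)) (X := {χ // W χ ≠ ⊥} → {χ // W χ ≠ ⊥}) (fun h χ =>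
    ⟨fun f => χ.1 ⟨(h : G) * f * (h : G)⁻¹, conj_mem h.2 f.2⟩, ?_⟩) fun a b hab f hf => ?_).trans ?_
  · obtain ⟨v, hv, hv0⟩ := (Submodule.ne_bot_iff _).1 χ.2
    refine (Submodule.ne_bot_iff _).2 ⟨ρ (h : G)⁻¹ v, (hW _ _).2 fun f => ?_, fun e => hv0 ?_⟩
    · rw [← map_smul, ← (hW _ _).1 hv, ← Module.End.mul_apply, ← Module.End.mul_apply, ← map_mul, ← map_mul]
      simp [mul_assoc]
    · simpa [← Module.End.mul_apply, ← map_mul] using congrArg (ρ h) e
  · have h4 : (a : G) * f * (a : G)⁻¹ = b * f * (b : G)⁻¹ := hρ (LinearMap.ext fun v => by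
      have hv : v ∈ ⨆ χ, W χ := htop ▸ Submodule.mem_top
      induction hv using Submodule.iSup_induction' with
      | mem χ v hv =>
        by_cases e : W χ = ⊥
        · rw [(Submodule.eq_bot_iff _).1 e v hv, map_zero, map_zero]
        · rw [(hW _ _).1 hv ⟨_, conj_mem a.2 hf⟩, (hW _ _).1 hv ⟨_, conj_mem b.2 hf⟩]
          exact congrArg (· • v) (congrFun (congrArg Subtype.val (congrFun hab ⟨χ, e⟩)) ⟨f, hf⟩)
      | zero => rw [map_zero, map_zero]
      | add x y _ _ hx hy => rw [map_add, map_add, hx, hy])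
    calc f * ((a : G)⁻¹ * b) = (a : G)⁻¹ * (a * f * (a : G)⁻¹) * b := by group
      _ = (a : G)⁻¹ * b * f := by rw [h4]; group
  · rw [Nat.card_fun, Nat.card_eq_fintype_card]
    exact (Nat.pow_le_pow_left h3 _).trans (Nat.pow_le_pow_right h0 h3)

theorem coset_bound (hρ : Function.Injective ρ) (hZ : ∀ z ∈ center G, ∃ c : K, ρ z = c • 1) (h0 : 0 < finrank K V)
    (g : G) : (centralizer {g}).relIndex
      ((centralizer {(g : G ⧸ center G)}).comap (QuotientGroup.mk' _)) ≤ finrank K V := by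
  classical
  have h1 : ∀ h : (centralizer {(g : G ⧸ center G)}).comap (QuotientGroup.mk' (center G)),
      (h : G) * g * (h : G)⁻¹ * g⁻¹ ∈ center G := fun h => by
    rw [← QuotientGroup.eq_one_iff]
    have := mem_centralizer_singleton_iff.1 (mem_comap.1 h.2)
    simp only [QuotientGroup.mk'_apply] at this
    simp [this]
  choose c hc using fun h => hZ _ (h1 h)
  refine (relIndex_le_of_fiber (X := (Polynomial.nthRoots (finrank K V) (1 : K)).toFinset) (fun h => ⟨c h, ?_⟩)
    fun a b hab => ?_).trans ?_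
  · have h2 := congrArg LinearMap.det (hc h)
    have h3 : ∀ x : G, LinearMap.det (ρ x) * LinearMap.det (ρ x⁻¹) = 1 := fun x => by
      rw [← map_mul, ← map_mul, mul_inv_cancel, map_one, map_one]
    rw [LinearMap.det_smul, map_one, mul_one, map_mul, map_mul, map_mul, map_mul, map_mul, map_mul,
      mul_right_comm (LinearMap.det (ρ h)), h3, one_mul, h3] at h2
    rw [Multiset.mem_toFinset, Polynomial.mem_nthRoots h0, ← h2]
  · have h2 := mul_right_cancel (hρ ((hc a).trans ((congrArg (· • 1) (congrArg Subtype.val hab)).trans (hc b).symm)))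
    rw [mem_centralizer_singleton_iff]
    calc (a : G)⁻¹ * b * g = (a : G)⁻¹ * (b * g * (b : G)⁻¹) * b := by group
      _ = g * ((a : G)⁻¹ * b) := by rw [← h2]; group
  · rw [Nat.card_eq_finsetCard]
    exact (Multiset.toFinset_card_le _).trans (Polynomial.card_nthRoots _ _)

theorem fan_bound [Finite G] [Fact p.Prime] (hρ : Function.Injective ρ) {m n M : ℕ} (hm : ¬ p ^ (m + 1) ∣ Nat.card G)
    (hn : finrank K V ≤ n) {H : Subgroup G} (h : Good M H) :
    (fanOf p M H).relIndex H ≤ M ^ (n * n) * p ^ m * M := by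
  obtain ⟨A, hA, h1, h2⟩ := h
  let A' : Subgroup G :=
    { carrier := {x | x ∈ A ∧ (orderOf x).Coprime p}
      one_mem' := ⟨one_mem _, by simp⟩
      inv_mem' := fun h => ⟨inv_mem h.1, by simpa using h.2⟩
      mul_mem' := fun {a b} ha hb => ⟨mul_mem ha.1 hb.1, (ha.2.mul_left hb.2).coprime_dvd_left
        (Commute.orderOf_mul_dvd_mul_orderOf (h1 hb.1 a ha.1))⟩ }
  have h3 : A' ≤ A := fun _ h => h.1
  have h4 : (Nat.card A').Coprime p := ((Fact.out : p.Prime).coprime_iff_not_dvd.2 fun hd => by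
    obtain ⟨x, hx⟩ := exists_prime_orderOf_dvd_card' p hd
    have := x.2.2
    rw [orderOf_coe, hx, Nat.coprime_self] at this
    exact (Fact.out : p.Prime).one_lt.ne' this).symm
  obtain ⟨F, hF, h5, h6⟩ := exists_fan (p := p) (Nat.zero_lt_of_lt h2)
    (fun A : Subgroup G => finrank K (Subalgebra.centralizer K (ρ '' A)).toSubmodule) (n * n)
    (fun A => (Submodule.finrank_le _).trans (by rw [finrank_linearMap]; exact Nat.mul_le_mul hn hn))
    (fun E A hE hn => by
      obtain ⟨x, hx, hx'⟩ := SetLike.not_le_iff_exists.1 hn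
      refine Submodule.finrank_lt_finrank_of_lt (SetLike.lt_iff_le_and_exists.2
        ⟨Subalgebra.centralizer_le K _ _ (Set.image_mono hE), ρ x, ?_, fun e => hx' fun a ha => hρ ?_⟩)
      · rintro _ ⟨a, ha, rfl⟩
        rw [← map_mul, ← map_mul, hx a ha]
      · rw [map_mul, map_mul]
        exact e _ ⟨a, ha, rfl⟩)
    (n * n) A' (h3.trans (h1.trans (cent_mono h3))) h4 (Nat.le_add_left _ _)
  have h7 : A'.relIndex A ≤ p ^ m := relIndex_le_pow hm (h1.trans ((cent_mono h3).trans (cent_le_norm _))) fun x hx =>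
    (exists_pow_coprime (p := p) x).imp fun k hk => ⟨pow_mem hx _, hk⟩
  refine (relIndex_le_of_le_left (h5.le_fanOf (hF.trans (h3.trans hA))) index_ne_zero_of_finite).trans ?_
  rw [← relIndex_mul_relIndex F A H (hF.trans h3) hA, ← relIndex_mul_relIndex F A' A hF h3]
  exact Nat.mul_le_mul (Nat.mul_le_mul h6 h7) h2.le

end

/-- The bound `J` works in dimension `≤ n` for groups of order not divisible by `p ^ (m + 1)`. -/
def Bd (p m n J : ℕ) : Prop := ∀ (G : Type u) [Group G] [Finite G] (K V : Type v) [Field K] [IsAlgClosed K] [CharP K p]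
  [AddCommGroup V] [Module K V] [FiniteDimensional K V] (ρ : Representation K G V), Function.Injective ρ →
    finrank K V ≤ n → ¬ p ^ (m + 1) ∣ Nat.card G → ∃ A : Subgroup G, A.Normal ∧ A ≤ 𝒞(A) ∧ A.index ≤ J

variable {p m n J : ℕ} {G : Type u} [Group G] [Finite G] {K V : Type v} [Field K] [IsAlgClosed K] [CharP K p]
  [AddCommGroup V] [Module K V] [FiniteDimensional K V] (ρ : Representation K G V)

theorem Bd.mod_ker (h : Bd.{u, v} p m n J) (hn : finrank K V ≤ n) (hm : ¬ p ^ (m + 1) ∣ Nat.card G) :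
    ∃ A : Subgroup G, A.Normal ∧ (∀ x ∈ A, ∀ y ∈ A, x * y * x⁻¹ * y⁻¹ ∈ ρ.ker) ∧ A.index ≤ J := by
  obtain ⟨A, h1, h2, h3⟩ := h (G ⧸ ρ.ker) K V (QuotientGroup.lift ρ.ker ρ le_rfl)
    ((injective_iff_map_eq_one _).2 fun q hq => by
      obtain ⟨x, rfl⟩ := QuotientGroup.mk_surjective q
      exact (QuotientGroup.eq_one_iff x).2 hq) hn fun e => hm (e.trans (card_quotient_dvd_card _))
  refine ⟨A.comap (QuotientGroup.mk' _), inferInstance, fun x hx y hy => ?_,
    (index_comap_of_surjective _ (QuotientGroup.mk'_surjective _)).trans_le h3⟩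
  have := h2 hy _ hx
  rw [← QuotientGroup.eq_one_iff]
  simp only [QuotientGroup.mk'_apply] at this
  simp [this]

theorem Bd.reducible [Fact p.Prime] (h : Bd.{u, v} p m n J) (hρ : Function.Injective ρ) (hn : finrank K V ≤ n + 1)
    (hm : ¬ p ^ (m + 1) ∣ Nat.card G) {W : Submodule K V} (hW : ∀ g, W ≤ W.comap (ρ g)) (h0 : W ≠ ⊥) (h1 : W ≠ ⊤) :
    ∃ A : Subgroup G, A.Normal ∧ A ≤ 𝒞(A) ∧ A.index ≤ p ^ m * (J * J * (p ^ m) ^ p ^ m) := by
  have d1 := Submodule.finrank_lt h1
  have d2 := W.finrank_quotient_add_finrank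
  have d3 := Submodule.finrank_eq_zero.not.2 h0
  obtain ⟨A₁, _, a1, i1⟩ := h.mod_ker (ρ.subrepresentation W hW) (by omega) hm
  obtain ⟨A₂, _, a2, i2⟩ := h.mod_ker (ρ.quotient W hW) (by omega) hm
  let U := (ρ.subrepresentation W hW).ker ⊓ (ρ.quotient W hW).ker
  have hU : ∀ u ∈ U, u ^ p = 1 := fun u hu => by
    have h2 : (ρ u - 1) * (ρ u - 1) = 0 := LinearMap.ext fun v => by
      have h3 : (ρ u - 1) v ∈ W := (Submodule.Quotient.eq W).1 (LinearMap.congr_fun hu.2 (Submodule.Quotient.mk v))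
      exact sub_eq_zero.2 (congrArg Subtype.val (LinearMap.congr_fun hu.1 ⟨_, h3⟩))
    have h3 : ∀ k : ℕ, ρ u ^ k = 1 + (k : K) • (ρ u - 1) := fun k => by
      induction k with
      | zero => simp
      | succ k ih =>
        rw [pow_succ, ih, ← sub_add_cancel (ρ u) 1, add_sub_cancel_right, add_mul, mul_add, mul_add, smul_mul_assoc, h2]
        simp only [one_mul, mul_one, smul_zero, zero_add, Nat.cast_succ, add_smul, one_smul]
        abel
    exact hρ (by rw [map_pow, h3, CharP.cast_eq_zero, zero_smul, add_zero, map_one])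
  have c1 : Nat.card U ≤ p ^ m := by
    rw [← relIndex_bot_left]
    exact relIndex_le_pow hm le_normalizer_of_normal fun x hx => ⟨1, by rw [pow_one, hU x hx]; exact one_mem _⟩
  have c2 : 𝒞(U).index ≤ (p ^ m) ^ p ^ m := by
    rw [← relIndex_top_right]
    refine (relIndex_le_of_fiber (K := 𝒞(U)) (X := U → U)
      (fun g u => ⟨(g : G) * u * (g : G)⁻¹, Normal.conj_mem inferInstance _ u.2 _⟩)
      fun a b hab u hu => ?_).trans ?_
    · have h4 : (a : G) * u * (a : G)⁻¹ = b * u * (b : G)⁻¹ := congrArg Subtype.val (congrFun hab ⟨u, hu⟩)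
      calc u * ((a : G)⁻¹ * b) = (a : G)⁻¹ * (a * u * (a : G)⁻¹) * b := by group
        _ = (a : G)⁻¹ * b * u := by rw [h4]; group
    · rw [Nat.card_fun]
      exact (Nat.pow_le_pow_left c1 _).trans (Nat.pow_le_pow_right (pow_pos (Fact.out : p.Prime).pos _) c1)
  let C := A₁ ⊓ A₂ ⊓ 𝒞(U)
  refine ⟨C ⊓ 𝒞(C), inferInstance, inf_le_right.trans (cent_mono inf_le_left), ?_⟩
  rw [← relIndex_mul_index (inf_le_left : C ⊓ 𝒞(C) ≤ C)]
  refine Nat.mul_le_mul (relIndex_le_pow hm le_normalizer_of_normal fun x hx => ⟨1, pow_mem hx _, fun y hy => ?_⟩)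
    (index_inf_le.trans (Nat.mul_le_mul (index_inf_le.trans (Nat.mul_le_mul i1 i2)) c2))
  have h2 : x * y * x⁻¹ * y⁻¹ ∈ U := ⟨a1 x hx.1.1 y hy.1.1, a2 x hx.1.2 y hy.1.2⟩
  have h3 : ∀ k : ℕ, x ^ k * y = (x * y * x⁻¹ * y⁻¹) ^ k * y * x ^ k := fun k => by
    induction k with
    | zero => simp
    | succ k ih =>
      rw [pow_succ' x, mul_assoc, ih, ← mul_assoc, ← mul_assoc, ← hx.2 _ (pow_mem h2 k), pow_succ]
      group
  rw [pow_one, h3, hU _ h2, one_mul]

theorem Bd.nonscalar [Fact p.Prime] (h : Bd.{u, v} p m n J) (hρ : Function.Injective ρ) (hn : finrank K V = n + 1)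
    (hm : ¬ p ^ (m + 1) ∣ Nat.card G) {g : G} (hg : ¬ ∃ c : K, ρ g = c • 1) :
    ∃ A ≤ centralizer {g}, centralizer {g} ≤ 𝒩(A) ∧ A ≤ 𝒞(A) ∧
      A.relIndex (centralizer {g}) ≤ p ^ m * (J * J * (p ^ m) ^ p ^ m) := by
  have : Nontrivial V := Module.nontrivial_of_finrank_eq_succ hn
  obtain ⟨c, hc⟩ := Module.End.exists_eigenvalue (ρ g)
  obtain ⟨A, h1, h2, h3⟩ := h.reducible (ρ.comp (centralizer {g}).subtype) (hρ.comp (subtype_injective _)) hn.le
    (fun e => hm (e.trans (card_subgroup_dvd_card _))) (W := Module.End.eigenspace (ρ g) c)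
    (fun x => Module.End.mapsTo_genEigenspace_of_comm (by
      rw [commute_iff_eq, MonoidHom.comp_apply, ← map_mul, ← map_mul]
      exact congrArg ρ (mem_centralizer_singleton_iff.1 x.2).symm) c 1) hc
    fun e => hg ⟨c, LinearMap.ext fun v => Module.End.mem_eigenspace_iff.1 (e ▸ Submodule.mem_top)⟩
  refine ⟨A.map (Subgroup.subtype _), map_subtype_le _, ?_, ?_, ?_⟩
  · simpa only [← MonoidHom.range_eq_map, range_subtype] using
      (map_mono (le_normalizer_of_normal (H := A) (K := ⊤))).trans (le_normalizer_map (centralizer {g}).subtype)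
  · rintro _ ⟨a, ha, rfl⟩ _ ⟨b, hb, rfl⟩
    exact congrArg Subtype.val (h2 ha b hb)
  · rwa [relIndex, subgroupOf, comap_map_eq_self_of_injective (subtype_injective _)]

theorem exists_bd (p m n : ℕ) [Fact p.Prime] : ∃ J, Bd.{u, v} p m n J := by
  induction n with
  | zero =>
    refine ⟨1, fun G _ _ K V _ _ _ _ _ _ ρ hρ hn _ => ⟨⊤, inferInstance, fun x _ y _ => hρ ?_, by simp⟩⟩
    have := Module.finrank_zero_iff.1 (Nat.le_zero.1 hn)
    exact Subsingleton.elim _ _
  | succ n ih =>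
    obtain ⟨J, hJ⟩ := ih
    set M := p ^ m * (J * J * (p ^ m) ^ p ^ m) + 1 with hM
    obtain ⟨B, hB⟩ := jordan_abs.{u} p M (M ^ ((n + 1) * (n + 1)) * p ^ m * M) ((n + 1) ^ (n + 1))
    refine ⟨max J (max M B), fun G _ _ K V _ _ _ _ _ _ ρ hρ hn hm => ?_⟩
    rcases hn.lt_or_eq with hn' | hn'
    · obtain ⟨A, h1, h2, h3⟩ := hJ G K V ρ hρ (by omega) hm
      exact ⟨A, h1, h2, h3.trans (le_max_left _ _)⟩
    by_cases hZ : ∀ z ∈ center G, ∃ c : K, ρ z = c • 1
    · refine (hB G ⟨?_, fun g hg => ?_, fun H hH => fan_bound hρ hm hn hH,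
        fun F hF => norm_bound hρ hF.1 hF.2.1 hn n.succ_pos,
        fun g => (coset_bound hρ hZ (by omega) g).trans (hn.trans (Nat.le_self_pow n.succ_ne_zero _))⟩).imp
          fun A h => ⟨h.1, h.2.1, h.2.2.trans ((le_max_right _ _).trans (le_max_right _ _))⟩
      · refine ((Fact.out : p.Prime).coprime_iff_not_dvd.2 fun hd => ?_).symm
        obtain ⟨x, hx⟩ := exists_prime_orderOf_dvd_card' p hd
        obtain ⟨c, hc⟩ := hZ x x.2
        have : Nontrivial V := Module.nontrivial_of_finrank_eq_succ hn'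
        have h1 : (c ^ p) • (1 : V →ₗ[K] V) = (1 : K) • 1 := by
          rw [← one_pow p, ← smul_pow, ← hc, ← map_pow, ← hx, ← orderOf_coe, pow_orderOf_eq_one, map_one, one_pow,
            one_smul]
        have h2 : c = 1 := frobenius_inj K p (by simpa [frobenius_def] using smul_left_injective K one_ne_zero h1)
        rw [show x = 1 from Subtype.ext (hρ (by simp [hc, h2])), orderOf_one] at hx
        exact (Fact.out : p.Prime).one_lt.ne hx
      · obtain ⟨A, h1, -, h2, h3⟩ := hJ.nonscalar ρ hρ hn' hm (g := g) fun ⟨c, hc⟩ =>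
          hg (mem_center_iff.2 fun x => hρ (by simp [hc]))
        exact ⟨A, h1, h2, by omega⟩
    · push Not at hZ
      obtain ⟨z, hz, h⟩ := hZ
      obtain ⟨A, -, h1, h2, h3⟩ := hJ.nonscalar ρ hρ hn' hm (g := z) fun ⟨c, hc⟩ => h c hc
      rw [centralizer_eq_top_iff_subset.2 (Set.singleton_subset_iff.2 hz)] at h1 h3
      rw [relIndex_top_right] at h3
      exact ⟨A, normalizer_eq_top_iff.1 (top_le_iff.1 h1), h2, by omega⟩

theorem brauer_feit (p : ℕ) [Fact p.Prime] : ∃ f : ℕ → ℕ → ℕ, ∀ (G : Type u) [Group G] [Finite G] (F : Type v)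
    [Field F] [CharP F p] (n : ℕ) (ρ : Representation F G (Fin n → F)), Function.Injective ρ → ∀ m : ℕ,
      (Nat.card G).factorization p = m → ∃ A : Subgroup G, A.Normal ∧ IsMulCommutative A ∧ A.index < f m n := by
  choose J hJ using fun m n => exists_bd.{u, v} p m n
  refine ⟨fun m n => J m n + 1, fun G _ _ F _ _ n ρ hρ m hm => ?_⟩
  obtain ⟨A, h1, h2, h3⟩ := hJ m n G (AlgebraicClosure F) (Fin n → AlgebraicClosure F)
    ((Matrix.toLinAlgEquiv' : Matrix (Fin n) (Fin n) (AlgebraicClosure F) ≃ₐ[AlgebraicClosure F] _).toMonoidHom.comp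
      ((algebraMap F (AlgebraicClosure F)).mapMatrix.toMonoidHom.comp
        ((LinearMap.toMatrixAlgEquiv' : _ ≃ₐ[F] Matrix (Fin n) (Fin n) F).toMonoidHom.comp ρ)))
    (Matrix.toLinAlgEquiv'.injective.comp ((Matrix.map_injective (algebraMap F (AlgebraicClosure F)).injective).comp
      (LinearMap.toMatrixAlgEquiv'.injective.comp hρ))) (by simp)
    (hm ▸ Nat.pow_succ_factorization_not_dvd Nat.card_pos.ne' Fact.out)
  exact ⟨A, h1, le_centralizer_iff_isMulCommutative.1 h2, Nat.lt_succ_of_le h3⟩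

end CL.Blk.Jor
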