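/-
Blocks of the least possible dimension are nilpotent.
-/
import Cfsg.Agent.Blk.BasicAlg
import Cfsg.Agent.Blk.BP
import Cfsg.Agent.Perm.Module

set_option autoImplicit false
set_option linter.unusedSectionVars false

namespace CL.Blk.Pair

open MonoidAlgebra Cfsg CL.Char CL.Grp CL.Blk.Rk CL.Perm Subgroup MulAction Matrix

section Abstract

variable {X Ω k : Type*} [Group X] [Finite X] [MulAction X Ω] [Fintype Ω] [Field k] {p : ℕ}
  [Fact p.Prime] [CharP k p]

theorem exists_fixed_of_sum_ne_zero (hX : IsPGroup p X) (Z : Subgroup X) {f : Ω → k}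
    (hf : ∀ z ∈ Z, ∀ a, f (z • a) = f a) (h : ∑ a, f a ≠ 0) :
    ∃ a, f a ≠ 0 ∧ ∀ z ∈ Z, z • a = a := by
  classical
  rw [CL.Blk.sum_eq_sum_fixed (hX.to_subgroup Z) (fun x => by simp) _ (fun _ _ _ => Finset.mem_univ _) f
    fun z a _ => hf z z.2 a] at h
  obtain ⟨a, ha, h1⟩ := Finset.exists_ne_zero_of_sum_ne_zero h
  exact ⟨a, h1, fun z hz => (Finset.mem_filter.1 ha).2 ⟨z, hz⟩⟩

/-- A summand of a permutation module of a `p`-group whose dimension does not exceed the lengths of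
the relevant orbits is a transitive permutation module. -/
theorem exists_orbit_of_rank (hX : IsPGroup p X) {K : Matrix Ω Ω k} (hK : K * K = K) (h0 : K ≠ 0)
    (hinv : ∀ (x : X) a b, K (x • a) (x • b) = K a b)
    (hst : ∀ a c, K a c ≠ 0 → (∀ x ∈ stabilizer X a, x • c = c) → K.rank ≤ Nat.card (orbit X a)) :
    ∃ o : Ω, Nat.card (orbit X o) = K.rank ∧ ∀ a b, K a b ≠ 0 →
      ∃ c ∈ orbit X o, ∀ z : X, z • a = a → z • b = b → z • c = c := by
  classical
  have hρ : ∀ (x : X) (v : Ω → k), K *ᵥ permRep k X Ω x v = permRep k X Ω x (K *ᵥ v) := by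
    intro x v
    funext a
    simp only [mulVec, dotProduct, permRep_apply]
    rw [← Equiv.sum_comp (toPerm x)]
    simp only [toPerm_apply, inv_smul_smul, ← hinv x (x⁻¹ • a), smul_inv_smul]
  obtain ⟨v, ⟨v', hv'⟩, hv0, hv⟩ := exists_ne_zero_fixed_of_isPGroup hX (permRep k X Ω)
    (LinearMap.range K.mulVecLin) (by rintro x _ ⟨w, rfl⟩; exact ⟨_, hρ x w⟩)
    (by rw [Ne, LinearMap.range_eq_bot]; exact fun h => h0 (toLin'.map_eq_zero_iff.1 h))
  have hv1 : ∀ (x : X) a, v (x • a) = v a := fun x a => by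
    simpa only [permRep_apply, inv_inv] using congrFun (hv x⁻¹) a
  have hv2 : ∀ a, ∑ c, K a c * v c = v a := fun a => by
    have : K *ᵥ v = v := by rw [← hv', mulVecLin_apply, mulVec_mulVec, hK]
    exact congrFun this a
  obtain ⟨a₀, ha₀⟩ := Function.ne_iff.1 hv0
  obtain ⟨o, ho⟩ : ∃ o, ∑ c with c ∈ orbit X o, K a₀ c * v c ≠ 0 := by
    rw [← hv2, ← Finset.sum_fiberwise _ (Quotient.mk (orbitRel X Ω))] at ha₀
    obtain ⟨q, -, hq⟩ := Finset.exists_ne_zero_of_sum_ne_zero ha₀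
    obtain ⟨o, rfl⟩ := q.exists_rep
    exact ⟨o, by simpa only [Quotient.eq, orbitRel_apply] using hq⟩
  rw [Finset.sum_congr rfl (g := fun c => K a₀ c * v o) (fun c hc => by
    obtain ⟨x, rfl⟩ := (Finset.mem_filter.1 hc).2
    rw [hv1]), ← Finset.sum_mul] at ho
  have h1 : K.rank ≤ Nat.card (orbit X o) := by
    obtain ⟨c, hc, h1⟩ := exists_fixed_of_sum_ne_zero hX (stabilizer X o) (f := fun c => K o c * v c)
      (fun z hz c => by rw [hv1, ← hinv z o c, mem_stabilizer_iff.1 hz])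
      (hv2 o ▸ right_ne_zero_of_mul ho)
    exact hst o c (left_ne_zero_of_mul hc) h1
  let U : Submodule k (Ω → k) := Pi.spanSubset k (orbit X o)
  have hU : ∀ w, w ∈ U ↔ ∀ c ∉ orbit X o, w c = 0 := fun w => Pi.mem_spanSubset_iff
  have hUρ : ∀ x, ∀ w ∈ U, permRep k X Ω x w ∈ U := fun x w hw => (hU _).2 fun c hc =>
    (hU w).1 hw _ fun h => hc (by simpa using mem_orbit_of_mem_orbit x h)
  have hinj : U ⊓ LinearMap.ker K.mulVecLin = ⊥ := by
    by_contra h
    obtain ⟨w, ⟨hw, hw'⟩, hw0, hw1⟩ := exists_ne_zero_fixed_of_isPGroup hX (permRep k X Ω)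
      (U ⊓ LinearMap.ker K.mulVecLin) (fun x w hw => ⟨hUρ x w hw.1, by
        rw [SetLike.mem_coe, LinearMap.mem_ker, mulVecLin_apply, hρ, ← mulVecLin_apply, hw.2,
          map_zero]⟩) h
    have hw2 : ∀ c, w c = if c ∈ orbit X o then w o else 0 := fun c => by
      split_ifs with hc
      · obtain ⟨x, rfl⟩ := hc
        simpa only [permRep_apply, inv_inv] using congrFun (hw1 x⁻¹) o
      · exact (hU w).1 hw c hc
    have h2 : ∑ c, K a₀ c * w c = 0 := congrFun hw' a₀
    rw [Finset.sum_congr rfl fun c _ => by rw [hw2 c, mul_ite, mul_zero], ← Finset.sum_filter,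
      ← Finset.sum_mul] at h2
    refine hw0 (funext fun c => ?_)
    rw [hw2, (mul_eq_zero.1 h2).resolve_left (left_ne_zero_of_mul ho), ite_self, Pi.zero_apply]
  have h2 : Module.finrank k (U.map K.mulVecLin) = Nat.card (orbit X o) := by
    rw [← LinearMap.range_domRestrict, LinearMap.finrank_range_of_inj
      (LinearMap.injective_domRestrict_iff.2 (disjoint_iff.2 hinj)), Pi.dim_spanSubset, Nat.card_coe_set_eq]
  have h3 : U.map K.mulVecLin = LinearMap.range K.mulVecLin :=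
    Submodule.eq_of_le_of_finrank_le LinearMap.map_le_range (h1.trans h2.ge)
  refine ⟨o, by rw [← h2, h3]; rfl, fun a b hab => ?_⟩
  obtain ⟨w, hw, hw'⟩ := h3.ge ⟨Pi.single b 1, rfl⟩
  have h4 : ∀ z ∈ stabilizer X a ⊓ stabilizer X b, ∀ c, w (z • c) = w c := fun z hz c => by
    have h4 : permRep k X Ω z⁻¹ w - w ∈ U ⊓ LinearMap.ker K.mulVecLin := by
      refine ⟨sub_mem (hUρ _ _ hw) hw, ?_⟩
      rw [SetLike.mem_coe, LinearMap.mem_ker, map_sub, mulVecLin_apply, hρ, ← mulVecLin_apply, hw',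
        mulVecLin_apply, ← hρ, permRep_single, (inv_mem hz).2, sub_self]
    rw [hinj, Submodule.mem_bot, sub_eq_zero] at h4
    simpa only [permRep_apply, inv_inv] using congrFun h4 c
  have h5 : ∑ c, K a c * w c = K a b := (congrFun hw' a).trans (by simp)
  obtain ⟨c, hc, h6⟩ := exists_fixed_of_sum_ne_zero hX (stabilizer X a ⊓ stabilizer X b)
    (f := fun c => K a c * w c) (fun z hz c => by rw [h4 z hz, ← hinv z a c, hz.1]) (h5 ▸ hab)
  exact ⟨c, not_not.1 fun h => right_ne_zero_of_mul hc ((hU w).1 hw c h),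
    fun z h h' => h6 z ⟨h, h'⟩⟩

end Abstract

variable {k : Type*} [Field k] {G : Type*} [Group G] [Finite G] {p : ℕ} [Fact p.Prime] [CharP k p]
  {D : Subgroup G} {b e : k[G]}

/-- The action of `S × S` on `G` by left and right multiplication. -/
@[reducible] def biAct (S : Subgroup G) : MulAction (S × S) G where
  smul z g := z.1 * g * (z.2 : G)⁻¹
  one_smul g := by change ((1 : S) : G) * g * ((1 : S) : G)⁻¹ = g; simp
  mul_smul z w g := by
    change ((z.1 * w.1 : S) : G) * g * ((z.2 * w.2 : S) : G)⁻¹ = z.1 * (w.1 * g * (w.2 : G)⁻¹) * (z.2 : G)⁻¹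
    simp [mul_assoc]

theorem exists_coeff_ne_zero_of_br {Q : Subgroup G} (h : br Q b ≠ 0) :
    ∃ y ∈ centralizer (Q : Set G), b.coeff y ≠ 0 := by
  by_contra h1
  push Not at h1
  refine h (alg_ext fun g => ?_)
  by_cases hg : g ∈ centralizer (Q : Set G)
  · rw [coeff_br_of_mem _ hg, h1 g hg]; rfl
  · rw [coeff_br_of_not_mem _ hg]; rfl

theorem IsMax.isNil_of_rk (h : IsMax p ⊤ ⊤ b D e) (S : Sylow p G) (hDS : D ≤ S)
    (hrk : rk (LinearMap.mulLeft k b) * Nat.card D = Nat.card S ^ 2) : IsNil p ⊤ ⊤ b := by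
  classical
  have := Fintype.ofFinite G
  letI := biAct (S : Subgroup G)
  have hs : ∀ (z : S × S) (g : G), z • g = z.1 * g * (z.2 : G)⁻¹ := fun _ _ => rfl
  set K := LinearMap.toMatrix (basis G k) (basis G k) (LinearMap.mulLeft k b) with hK
  have h1 : ∀ a c, K a c = b.coeff (a * c⁻¹) := fun a c => by
    rw [hK, LinearMap.toMatrix_apply, basis_apply, LinearMap.mulLeft_apply]
    exact (coeff_mul_single_apply _ _ _ _).trans (mul_one _)
  have h2 : K.rank = rk (LinearMap.mulLeft k b) := by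
    rw [rank_eq_finrank_range_toLin K (basis G k) (basis G k), hK, toLin_toMatrix, rk]
  have h3 : ∀ a : G, Nat.card (orbit (S × S) a) * Nat.card (stabilizer (S × S) a) =
      K.rank * Nat.card D := fun a => by
    rw [← Nat.card_prod, Nat.card_congr (orbitProdStabilizerEquivGroup (S × S) a), h2, hrk,
      Nat.card_prod, sq]
  have hX : IsPGroup p (S × S) := by
    obtain ⟨n, hn⟩ := IsPGroup.iff_card.1 S.isPGroup'
    exact .of_card (n := n + n) (by rw [Nat.card_prod, hn, pow_add])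
  obtain ⟨o, ho, h4⟩ := exists_orbit_of_rank (K := K) hX
    (by rw [hK, ← LinearMap.toMatrix_mul, Module.End.mul_eq_comp, ← LinearMap.mulLeft_mul, h.blk.idem])
    (fun h0 => h.blk.ne_zero (alg_ext fun g => by simpa [h0] using (h1 g 1).symm))
    (fun (z : S × S) a c => by
      rw [h1, h1, ← h.blk.fix.coeff_conj (x := (z.1 : S)) trivial (a * c⁻¹), hs, hs]
      congr 1; group)
    fun a c hac hc => by
      set f := ((S : Subgroup G).subtype.comp (MonoidHom.fst S S)).comp (stabilizer (S × S) a).subtype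
      have hf : Function.Injective f := (injective_iff_map_eq_one f).2 fun z hz => by
        have h5 : ((z : S × S).1 : G) = 1 := hz
        have h6 : _ * a * _ = a := z.2
        rw [h5, one_mul, mul_eq_left, inv_eq_one] at h6
        exact Subtype.ext (Prod.ext (Subtype.ext h5) (Subtype.ext h6))
      have h5 : Nat.card f.range ≤ Nat.card D := by
        refine h.isDef.card_le h.blk le_rfl h.norm
          (S.isPGroup'.to_le (by rintro _ ⟨z, rfl⟩; exact z.1.1.2)) le_top fun h5 => hac ?_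
        rw [h1, ← coeff_br_of_mem (P := f.range), h5]
        · rfl
        rintro _ ⟨⟨z, hz⟩, rfl⟩
        have h6 : _ * a * _ = a := hz
        have h7 : _ * c * _ = c := hc z hz
        change (z.1 : G) * _ = _ * z.1
        conv_rhs => rw [← h6, ← h7]
        group
      rw [← Nat.card_congr (MonoidHom.ofInjective hf).toEquiv] at h5
      exact Nat.le_of_mul_le_mul_right ((h3 a).ge.trans (Nat.mul_le_mul_left _ h5)) Nat.card_pos
  obtain ⟨y, hy, hy'⟩ := exists_coeff_ne_zero_of_br h.isDef.br_ne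
  obtain ⟨c, hc, h5⟩ := h4 y 1 (by rwa [h1, inv_one, mul_one])
  have h6 : ∀ z ∈ stabilizer (S × S) c, z.1 = z.2 := by
    set f := (inclusion hDS).prod (inclusion hDS)
    have hf : Function.Injective f := fun u v huv => inclusion_injective hDS (congrArg Prod.fst huv)
    have h6 : f.range = stabilizer (S × S) c := by
      refine eq_of_le_of_card_ge ?_ (le_of_eq ?_)
      · rintro _ ⟨u, rfl⟩
        exact h5 _ (mul_inv_eq_of_eq_mul (hy u u.2)) (by simp [hs, f])
      · have h6 := h3 c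
        rw [orbit_eq_iff.2 hc, ho] at h6
        rw [← Nat.card_congr (MonoidHom.ofInjective hf).toEquiv]
        exact Nat.eq_of_mul_eq_mul_left (ho ▸ Nat.card_pos_iff.2 ⟨⟨⟨o, mem_orbit_self o⟩⟩, inferInstance⟩) h6
    rw [← h6]
    rintro _ ⟨u, rfl⟩
    rfl
  refine h.isNil_iff.2 fun Q f hle x hx => ?_
  obtain ⟨w, hw, hw'⟩ := exists_coeff_ne_zero_of_br (Q := Q)
    fun h0 => h.isDef.br_ne (br_eq_zero_of_le hle.le h0)
  obtain ⟨c', hc', h7⟩ := h4 (w * x) x (by rwa [h1, mul_inv_cancel_right])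
  obtain ⟨z, rfl⟩ : c' ∈ orbit (S × S) c := orbit_eq_iff.2 hc ▸ hc'
  have h8 : x * z.2 * (z.1 : G)⁻¹ ∈ centralizer (Q : Set G) := fun r hr => by
    have h8 := h7 (⟨r, hDS (hle.le hr)⟩, ⟨x⁻¹ * r * x, hDS (hle.le
      ((mem_normalizer_iff''.1 hx.1.2 r).1 hr))⟩) (by rw [hs, ← mul_assoc, hw r hr]; group)
      (by rw [hs]; group)
    rw [← mul_smul, ← inv_smul_eq_iff, ← mul_smul] at h8
    have h9 : (z.1 : G)⁻¹ * (r * z.1) = (z.2 : G)⁻¹ * (x⁻¹ * r * x * z.2) :=
      congrArg Subtype.val (h6 _ h8)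
    calc r * (x * z.2 * (z.1 : G)⁻¹) = x * z.2 * ((z.2 : G)⁻¹ * (x⁻¹ * r * x * z.2)) * (z.1 : G)⁻¹ := by
          group
      _ = _ := by rw [← h9]; group
  refine (pExt_of_isPGroup (U := S ⊓ normalizer (Q : Set G)) S.isPGroup'.to_inf_left).sup
    (inf_le_right.trans (normalizer_le_normalizer_centralizer Q)) x ?_
  rw [← mul_inv_cancel_left (x * z.2 * (z.1 : G)⁻¹) x]
  have h9 : (x * z.2 * (z.1 : G)⁻¹)⁻¹ * x ∈ normalizer (Q : Set G) :=
    mul_mem (inv_mem (centralizer_le_normalizer _ h8)) hx.1.2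
  have h10 : (x * z.2 * (z.1 : G)⁻¹)⁻¹ * x ∈ (S : Subgroup G) := by
    simpa only [_root_.mul_inv_rev, inv_inv, mul_assoc, inv_mul_cancel, mul_one] using
      mul_mem z.1.2 (inv_mem z.2.2)
  exact mul_mem (mem_sup_right h8) (mem_sup_left ⟨h10, h9⟩)

end CL.Blk.Pair
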