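/-
Brauer–Nesbitt: few `p`-regular elements force a normal `p`-complement.
-/
import Cfsg.Agent.Blk.IBrDec
import Cfsg.Agent.Blk.Principal
import Cfsg.Agent.Blk.RkProj
import Cfsg.Agent.Char.Orth2
import Cfsg.Agent.Char.Kernel

set_option autoImplicit false

namespace CL.Blk.Rk

open Cfsg CL.Char CL.Blk Module MonoidAlgebra
open scoped MonoidAlgebra ComplexConjugate

variable {G : Type*} [Group G] [Finite G] {p : ℕ} {M : Ideal AlgInt}

/-- The projective indecomposable character of a simple module. -/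
noncomputable def rcPim (j : Sim M G) : G → ℂ :=
  ∑ χ : IrrCharacter G, ((dec (χ : G → ℂ) j : ℕ) : ℂ) • (χ : G → ℂ)

theorem rcPim_isCharacter (j : Sim M G) : IsCharacter G (rcPim j) :=
  isCharacter_sum_nat_smul_irr _

theorem rcPim_of_sing (hM : IsPModular p M) (j : Sim M G) {y : G} (hy : ¬ IsPRegular p y) :
    rcPim j y = 0 := by
  classical
  have key : ∑ i : Sim M G, conj (rcPim i y) • i.ibr p = 0 := by
    funext x
    by_cases hx : IsPRegular p x
    · have h0 : ¬ IsConj x y := fun h => by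
        obtain ⟨c, rfl⟩ := isConj_iff.1 h
        exact hy ((isPRegular_conj x c).2 hx)
      have h1 := sum_irr_mul_conj_of_not_isConj h0
      have h2 : ∀ χ : IrrCharacter G, (χ : G → ℂ) x =
          ∑ i : Sim M G, (dec (χ : G → ℂ) i : ℂ) * i.ibr p x := fun χ => by
        have := congrFun (pReg_eq_sum_dec hM χ.2.isCharacter) x
        rw [pReg_of_reg hx] at this
        rw [this, Finset.sum_apply]
        rfl
      simp only [h2, Finset.sum_mul] at h1
      rw [Finset.sum_comm] at h1
      rw [Finset.sum_apply, Pi.zero_apply, ← h1]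
      refine Finset.sum_congr rfl fun i _ => ?_
      simp only [rcPim, Pi.smul_apply, smul_eq_mul, Finset.sum_apply, map_sum, map_mul,
        Complex.conj_natCast, Finset.sum_mul]
      exact Finset.sum_congr rfl fun χ _ => by ring
    · rw [Finset.sum_apply, Pi.zero_apply]
      refine Finset.sum_eq_zero fun i _ => ?_
      have := congrFun (i.pReg_ibr (p := p)) x
      rw [pReg_of_sing hx] at this
      rw [Pi.smul_apply, ← this, smul_zero]
  have := Fintype.linearIndependent_iff.1 (linearIndependent_ibr (G := G) hM) _ key j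
  simpa using this

theorem rc_exists_triv (hM : IsPModular p M) : ∃ j : Sim M G,
    dec (fun _ : G => (1 : ℂ)) j = 1 ∧ ∀ i, i ≠ j → dec (fun _ : G => (1 : ℂ)) i = 0 := by
  classical
  have h := charDegree_eq_sum_dec (G := G) hM isCharacter_one
  rw [charDegree_eq_of_eq (n := 1) (by simp)] at h
  obtain ⟨j, -, hj⟩ := Finset.exists_ne_zero_of_sum_ne_zero (h ▸ one_ne_zero :
    ∑ j : Sim M G, dec (fun _ : G => (1 : ℂ)) j * j.dim ≠ 0)
  rw [← Finset.add_sum_erase _ _ (Finset.mem_univ j)] at h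
  have h1 : dec (fun _ : G => (1 : ℂ)) j * j.dim = 1 := by omega
  have h2 : ∑ i ∈ Finset.univ.erase j, dec (fun _ : G => (1 : ℂ)) i * i.dim = 0 := by omega
  refine ⟨j, Nat.eq_one_of_mul_eq_one_right h1, fun i hi => ?_⟩
  have := Finset.sum_eq_zero_iff.1 h2 i (Finset.mem_erase.2 ⟨hi, Finset.mem_univ _⟩)
  exact (Nat.mul_eq_zero.1 this).resolve_right i.dim_pos.ne'

theorem rc_evalFun_avg (χ : G → ℂ) (Q : Subgroup G) [Fintype Q] :
    evalFun χ (avgIdem Q) = (Nat.card Q : ℂ)⁻¹ * ∑ u : Q, χ u := by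
  have := evalFun_single_mul_avgIdem χ Q 1
  simpa only [← MonoidAlgebra.one_def, one_mul] using this

theorem rc_dec_le (hM : IsPModular p M) {j : Sim M G} (h1 : dec (fun _ : G => (1 : ℂ)) j = 1)
    (h0 : ∀ i, i ≠ j → dec (fun _ : G => (1 : ℂ)) i = 0) {Q : Subgroup G} [Fintype Q]
    (hQ : ¬ p ∣ Nat.card Q) {χ : G → ℂ} (hχ : IsCharacter G χ) :
    ∃ m : ℕ, dec χ j ≤ m ∧ (m : ℂ) = (Nat.card Q : ℂ)⁻¹ * ∑ u : Q, χ u := by
  classical
  have he : IsIdempotentElem (avgIdem Q) := avgIdem_mul_self Q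
  have hO := avgIdem_mem_OG (G := G) hM hQ
  have ht := evalFun_idem_eq_sum (M := M) isCharacter_one hO he
  rw [rc_evalFun_avg, Finset.sum_eq_single j (fun i _ hi => by rw [h0 i hi]; simp) (by simp), h1]
    at ht
  have hr : rk (j.alg (redG M (avgIdem Q))) = 1 := by
    have : ((rk (j.alg (redG M (avgIdem Q))) : ℕ) : ℂ) = 1 := by
      rw [Nat.cast_one, mul_one] at ht
      rw [← ht]
      simp only [Finset.sum_const, Finset.card_univ, nsmul_eq_mul, mul_one,
        ← Nat.card_eq_fintype_card]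
      exact inv_mul_cancel₀ natCard_ne_zero
    exact_mod_cast this
  refine ⟨∑ i : Sim M G, rk (i.alg (redG M (avgIdem Q))) * dec χ i, ?_, ?_⟩
  · calc dec χ j = rk (j.alg (redG M (avgIdem Q))) * dec χ j := by rw [hr, one_mul]
      _ ≤ _ := Finset.single_le_sum (f := fun i : Sim M G => rk (i.alg (redG M (avgIdem Q))) *
          dec χ i) (fun _ _ => Nat.zero_le _) (Finset.mem_univ j)
  · rw [← rc_evalFun_avg, evalFun_idem_eq_sum hχ hO he]
    push_cast
    rfl

theorem rc_sum_mul {Q R : Subgroup G} [Fintype Q] [Fintype R]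
    (h : (Nat.card Q).Coprime (Nat.card R)) :
    ∑ χ : IrrCharacter G, (∑ u : Q, (χ : G → ℂ) u) * conj (∑ v : R, (χ : G → ℂ) v) =
      Nat.card G := by
  classical
  simp only [map_sum, Finset.sum_mul_sum]
  rw [Finset.sum_comm, Finset.sum_eq_single (1 : Q) _ (by simp), Finset.sum_comm,
    Finset.sum_eq_single (1 : R) _ (by simp), sum_irr_mul_conj_of_isConj (by simp)]
  · congr 1
    rw [show Subgroup.centralizer ({((1 : Q) : G)} : Set G) = ⊤ from ?_, Subgroup.card_top]
    rw [eq_top_iff]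
    intro x _
    simp [Subgroup.mem_centralizer_iff]
  · intro v _ hv
    refine sum_irr_mul_conj_of_not_isConj fun hc => hv ?_
    exact Subtype.ext (isConj_one_right.1 (by simpa using hc))
  · intro u _ hu
    rw [Finset.sum_comm]
    refine Finset.sum_eq_zero fun v _ => sum_irr_mul_conj_of_not_isConj fun hc => hu ?_
    have ho : orderOf (u : G) = orderOf (v : G) := by
      obtain ⟨c, hc⟩ := isConj_iff.1 hc
      rw [← hc]
      exact (MulAut.conj c).orderOf_eq (u : G) |>.symm
    have h1 : orderOf (u : G) ∣ Nat.card Q := by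
      rw [Subgroup.orderOf_coe]; exact orderOf_dvd_natCard u
    have h2 : orderOf (u : G) ∣ Nat.card R := by
      rw [ho, Subgroup.orderOf_coe]; exact orderOf_dvd_natCard v
    exact Subtype.ext (orderOf_eq_one_iff.1 (Nat.eq_one_of_dvd_coprimes h h1 h2))

/-- If the number of `p`-regular elements is `|Q| |R|` for `p'`-subgroups of coprime orders then
the `p`-regular elements form a normal subgroup. -/
theorem exists_normal_of_card_regular (hp : p.Prime) {Q R : Subgroup G} (hQ : ¬ p ∣ Nat.card Q)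
    (hR : ¬ p ∣ Nat.card R) (h : (Nat.card Q).Coprime (Nat.card R))
    (hc : Nat.card {g : G // ¬ p ∣ orderOf g} = Nat.card Q * Nat.card R) :
    ∃ N : Subgroup G, N.Normal ∧ ∀ g, g ∈ N ↔ ¬ p ∣ orderOf g := by
  classical
  let _ := Fintype.ofFinite G
  obtain ⟨M, hM⟩ := exists_isPModular' hp
  obtain ⟨j, h1, h0⟩ := rc_exists_triv (G := G) hM
  choose mQ hmQ hmQ' using fun χ : IrrCharacter G => rc_dec_le hM h1 h0 hQ χ.2.isCharacter
  choose mR hmR hmR' using fun χ : IrrCharacter G => rc_dec_le hM h1 h0 hR χ.2.isCharacter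
  have hQ0 : (Nat.card Q : ℂ) ≠ 0 := natCard_ne_zero
  have hR0 : (Nat.card R : ℂ) ≠ 0 := natCard_ne_zero
  have hG0 : (Nat.card G : ℂ) ≠ 0 := natCard_ne_zero
  set c : ℕ := ∑ χ : IrrCharacter G, mQ χ * mR χ with hcdef
  have hcc : (c : ℂ) = (Nat.card Q : ℂ)⁻¹ * (Nat.card R : ℂ)⁻¹ * Nat.card G := by
    rw [← rc_sum_mul h, hcdef, Finset.mul_sum]
    push_cast
    refine Finset.sum_congr rfl fun χ _ => ?_
    have : (mR χ : ℂ) = (Nat.card R : ℂ)⁻¹ * conj (∑ v : R, (χ : G → ℂ) v) := by
      rw [← Complex.conj_natCast, hmR', map_mul, map_inv₀, Complex.conj_natCast]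
    rw [hmQ', this]
    ring
  set d : ℕ := ∑ χ : IrrCharacter G, dec (χ : G → ℂ) j * dec (χ : G → ℂ) j with hddef
  have hdc : d ≤ c := Finset.sum_le_sum fun χ _ => Nat.mul_le_mul (hmQ χ) (hmR χ)
  have hirr : ∀ ψ : IrrCharacter G, classInner (rcPim j) ψ = dec (ψ : G → ℂ) j := fun ψ => by
    simp only [rcPim, classInner_sum_left, classInner_smul_left, classInner_irr, mul_ite, mul_one,
      mul_zero, Finset.sum_ite_eq', Finset.mem_univ, if_true]
  have hPP : classInner (rcPim j) (rcPim j) = d := by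
    nth_rewrite 2 [rcPim]
    simp only [classInner_sum_right, classInner_smul_right, hirr, Complex.conj_natCast, hddef]
    push_cast
    rfl
  have hreg : pRegularPart p (rcPim j) = rcPim j :=
    pReg_eq_self_iff.2 fun g hg => rcPim_of_sing hM j hg
  set s : G → ℂ := pRegularPart p fun _ => 1 with hs
  have hPs : classInner (rcPim j) s = 1 := by
    rw [hs, ← classInner_pReg_left, hreg, ← coe_irrOne, hirr, coe_irrOne, h1, Nat.cast_one]
  have hsP : classInner s (rcPim j) = 1 := by rw [← conj_classInner, hPs, map_one]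
  have hss : classInner s s = (Nat.card G : ℂ)⁻¹ * (Nat.card Q * Nat.card R) := by
    rw [hs, classInner_pReg_pReg, classInner_one_right, ← Nat.cast_mul, ← hc]
    congr 1
    simp only [pReg_apply, Finset.sum_boole, Nat.card_eq_fintype_card, Fintype.card_subtype]
    congr 2
    ext x
    rw [@Finset.mem_filter _ _ (_), @Finset.mem_filter _ _ (_)]
    rfl
  have hθ : classInner (rcPim j - (c : ℂ) • s) (rcPim j - (c : ℂ) • s) = (d : ℂ) - c := by
    simp only [classInner_sub_left, classInner_sub_right, classInner_smul_left,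
      classInner_smul_right, hPP, hPs, hsP, hss, Complex.conj_natCast]
    have : (c : ℂ) * ((Nat.card G : ℂ)⁻¹ * (Nat.card Q * Nat.card R)) = 1 := by
      rw [hcc]; field_simp
    linear_combination (c : ℂ) * this
  have hcd : c ≤ d := by
    have := classInner_self_re_nonneg (rcPim j - (c : ℂ) • s)
    rw [hθ] at this
    simp only [Complex.sub_re, Complex.natCast_re, sub_nonneg] at this
    exact_mod_cast this
  rw [le_antisymm hdc hcd, sub_self, classInner_self_eq_zero, sub_eq_zero] at hθ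
  have hc0 : (c : ℂ) ≠ 0 := by
    rw [hcc]; exact mul_ne_zero (mul_ne_zero (inv_ne_zero hQ0) (inv_ne_zero hR0)) hG0
  refine ⟨charKer (rcPim j), (rcPim_isCharacter j).charKer_normal, fun g => ?_⟩
  rw [(rcPim_isCharacter j).mem_charKer, hθ]
  simp only [Pi.smul_apply, smul_eq_mul, hs, pReg_one hp, mul_one]
  by_cases hg : IsPRegular p g
  · rw [pReg_of_reg hg, mul_one]
    exact ⟨fun _ => hg, fun _ => rfl⟩
  · rw [pReg_of_sing hg, mul_zero]
    exact ⟨fun h => absurd h.symm hc0, fun h => absurd h hg⟩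

end CL.Blk.Rk
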